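import Mathlib

/-! # Combinatorics of coefficient vectors: the sunflower dichotomy and a Cauchy bound -/

set_option linter.style.haveILetI false
set_option linter.unusedSectionVars false
set_option linter.unusedFintypeInType false
set_option linter.unusedDecidableInType false

namespace Cfsg.Agent.Lib.ZT

variable {X ι : Type*} [Fintype X] [DecidableEq X] [Fintype ι] [DecidableEq ι]

/-- Norm and signed sum agree: values in `{0,1}` with sign `+1` on the support. -/
lemma zero_one_of (f : X → ℕ) (ε : X → ℤ) (hε : ∀ x, ε x ≤ 1) (q : ℕ)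
    (h1 : ∑ x, f x ^ 2 = q) (h2 : ∑ x, ε x * (f x : ℤ) = q) :
    ∀ x, (f x = 0) ∨ (f x = 1 ∧ ε x = 1) := by
  have h3 : ∑ x, ((f x : ℤ) ^ 2 - ε x * (f x : ℤ)) = 0 := by
    rw [Finset.sum_sub_distrib, h2]
    have : ∑ x, ((f x : ℤ)) ^ 2 = (q : ℤ) := by exact_mod_cast h1
    rw [this]; ring
  have h4 : ∀ x ∈ Finset.univ, 0 ≤ (f x : ℤ) ^ 2 - ε x * (f x : ℤ) := by
    intro x _
    have h5 : (0 : ℤ) ≤ f x := by positivity
    rcases Nat.eq_zero_or_pos (f x) with h6 | h6
    · simp [h6]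
    · have h7 : (1 : ℤ) ≤ f x := by exact_mod_cast h6
      nlinarith [hε x]
  intro x
  have h5 := (Finset.sum_eq_zero_iff_of_nonneg h4).mp h3 x (Finset.mem_univ x)
  rcases Nat.eq_zero_or_pos (f x) with h6 | h6
  · exact Or.inl h6
  · right
    have h7 : (1 : ℤ) ≤ f x := by exact_mod_cast h6
    have h8 : (f x : ℤ) = ε x := by
      have : (f x : ℤ) * ((f x : ℤ) - ε x) = 0 := by linarith [h5, sq (f x : ℤ)]
      rcases mul_eq_zero.mp this with h9 | h9
      · omega
      · omega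
    have h9 := hε x
    constructor
    · have : (f x : ℤ) = 1 := by omega
      exact_mod_cast this
    · omega

/-- Three `q`-sets pairwise meeting in `q-1` points. -/
lemma three_sets {q : ℕ} (hq : 1 ≤ q) {A B C : Finset X} (hA : A.card = q) (hB : B.card = q)
    (hC : C.card = q) (hAB : (A ∩ B).card = q - 1) (hAC : (A ∩ C).card = q - 1)
    (hBC : (B ∩ C).card = q - 1) {d : X} (hd : d ∈ A ∩ B) (hdC : d ∉ C) :
    A ∪ B = insert d C := by
  have hdA : d ∈ A := (Finset.mem_inter.mp hd).1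
  have hdB : d ∈ B := (Finset.mem_inter.mp hd).2
  have h1 : A ∩ C = A.erase d := by
    apply Finset.eq_of_subset_of_card_le
    · intro x hx
      have hx' := Finset.mem_inter.mp hx
      refine Finset.mem_erase.mpr ⟨?_, hx'.1⟩
      rintro rfl
      exact hdC hx'.2
    · rw [Finset.card_erase_of_mem hdA, hA, hAC]
  have h2 : B ∩ C = B.erase d := by
    apply Finset.eq_of_subset_of_card_le
    · intro x hx
      have hx' := Finset.mem_inter.mp hx
      refine Finset.mem_erase.mpr ⟨?_, hx'.1⟩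
      rintro rfl
      exact hdC hx'.2
    · rw [Finset.card_erase_of_mem hdB, hB, hBC]
  have hT : (A ∪ B).card = q + 1 := by
    have := Finset.card_union_add_card_inter A B
    omega
  have h3 : (A ∪ B).erase d ⊆ C := by
    intro x hx
    have hx' := Finset.mem_erase.mp hx
    rcases Finset.mem_union.mp hx'.2 with hxA | hxB
    · have : x ∈ A ∩ C := by rw [h1]; exact Finset.mem_erase.mpr ⟨hx'.1, hxA⟩
      exact (Finset.mem_inter.mp this).2
    · have : x ∈ B ∩ C := by rw [h2]; exact Finset.mem_erase.mpr ⟨hx'.1, hxB⟩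
      exact (Finset.mem_inter.mp this).2
  have h4 : (A ∪ B).erase d = C := by
    apply Finset.eq_of_subset_of_card_le h3
    rw [Finset.card_erase_of_mem (Finset.mem_union_left _ hdA), hT, hC]
    simp
  rw [← h4, Finset.insert_erase (Finset.mem_union_left _ hdA)]

/-- The sunflower dichotomy; the co-sunflower case is excluded by a weight function. -/
theorem sunflower_of_weight {q : ℕ} (hq : 2 ≤ q) (hι : Fintype.card ι = q + 1) (S : ι → Finset X)
    (hc : ∀ j, (S j).card = q) (hi : ∀ i j, i ≠ j → (S i ∩ S j).card = q - 1)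
    (a₀ : X → ℕ) (ha : ∀ j, ∑ x ∈ S j, a₀ x = q - 1) :
    ∃ (D : Finset X) (c : ι → X), (∀ j, c j ∉ D) ∧ (∀ j, S j = insert (c j) D) ∧
      Function.Injective c ∧ D.card = q - 1 := by
  have hSinj : Function.Injective S := by
    intro i j hij
    by_contra hne
    have h1 := hi i j hne
    rw [← hij, Finset.inter_self, hc] at h1
    omega
  have h1ι : 1 < Fintype.card ι := by omega
  obtain ⟨j₁, j₂, hj⟩ := Fintype.exists_pair_of_one_lt_card h1ι
  by_cases hcase : ∀ j, S j₁ ∩ S j₂ ⊆ S j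
  · -- the sunflower case
    have hD := hi j₁ j₂ hj
    have h1 : ∀ j, ∃ x, x ∉ S j₁ ∩ S j₂ ∧ S j = insert x (S j₁ ∩ S j₂) := by
      intro j
      have h2 : (S j \ (S j₁ ∩ S j₂)).card = 1 := by
        rw [Finset.card_sdiff_of_subset (hcase j), hc, hD]
        omega
      obtain ⟨x, hx⟩ := Finset.card_eq_one.mp h2
      have hxm : x ∈ S j \ (S j₁ ∩ S j₂) := by rw [hx]; exact Finset.mem_singleton_self x
      refine ⟨x, (Finset.mem_sdiff.mp hxm).2, ?_⟩
      rw [← Finset.singleton_union, ← hx, Finset.sdiff_union_of_subset (hcase j)]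
    choose c hc1 hc2 using h1
    refine ⟨S j₁ ∩ S j₂, c, hc1, hc2, ?_, hD⟩
    intro i j hij
    apply hSinj
    rw [hc2 i, hc2 j, hij]
  · exfalso
    push Not at hcase
    obtain ⟨j₃, hj₃⟩ := hcase
    obtain ⟨d, hdD, hdj₃⟩ := Finset.not_subset.mp hj₃
    have hne₁ : j₁ ≠ j₃ := by
      rintro rfl
      exact hdj₃ (Finset.mem_inter.mp hdD).1
    have hne₂ : j₂ ≠ j₃ := by
      rintro rfl
      exact hdj₃ (Finset.mem_inter.mp hdD).2
    have h3 := three_sets (by omega) (hc j₁) (hc j₂) (hc j₃) (hi j₁ j₂ hj) (hi j₁ j₃ hne₁)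
      (hi j₂ j₃ hne₂) hdD hdj₃
    set T := S j₁ ∪ S j₂ with hTdef
    have hT : T.card = q + 1 := by
      rw [h3, Finset.card_insert_of_notMem hdj₃, hc]
    have hsub : ∀ j, S j ⊆ T := by
      intro j
      by_cases hjD : S j₁ ∩ S j₂ ⊆ S j
      · -- `S j` is the petal form
        by_cases hj1 : j = j₁
        · rw [hj1]; exact Finset.subset_union_left
        by_cases hj2 : j = j₂
        · rw [hj2]; exact Finset.subset_union_right
        have hj3 : j ≠ j₃ := by
          rintro rfl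
          exact hj₃ hjD
        have hcard := hi j j₃ hj3
        by_contra hns
        obtain ⟨y, hyj, hyT⟩ := Finset.not_subset.mp hns
        have hyj₃ : y ∉ S j₃ := fun h => hyT (by rw [h3]; exact Finset.mem_insert_of_mem h)
        have hDsub : S j = insert y (S j₁ ∩ S j₂) := by
          symm
          apply Finset.eq_of_subset_of_card_le
          · intro x hx
            rcases Finset.mem_insert.mp hx with rfl | hx
            · exact hyj
            · exact hjD hx
          · rw [hc, Finset.card_insert_of_notMem, hi j₁ j₂ hj]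
            · omega
            · intro hy
              exact hyT (Finset.mem_union_left _ (Finset.mem_inter.mp hy).1)
        have h5 : S j ∩ S j₃ ⊆ (S j₁ ∩ S j₂).erase d := by
          intro x hx
          have hx' := Finset.mem_inter.mp hx
          rw [hDsub] at hx'
          rcases Finset.mem_insert.mp hx'.1 with rfl | hx1
          · exact absurd hx'.2 hyj₃
          · refine Finset.mem_erase.mpr ⟨?_, hx1⟩
            rintro rfl
            exact hdj₃ hx'.2
        have h6 := Finset.card_le_card h5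
        rw [hcard, Finset.card_erase_of_mem hdD, hi j₁ j₂ hj] at h6
        omega
      · obtain ⟨d', hd'D, hd'j⟩ := Finset.not_subset.mp hjD
        have hne1 : j₁ ≠ j := by
          rintro rfl
          exact hd'j (Finset.mem_inter.mp hd'D).1
        have hne2 : j₂ ≠ j := by
          rintro rfl
          exact hd'j (Finset.mem_inter.mp hd'D).2
        have h4 := three_sets (by omega) (hc j₁) (hc j₂) (hc j) (hi j₁ j₂ hj) (hi j₁ j hne1)
          (hi j₂ j hne2) hd'D hd'j
        rw [hTdef, h4]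
        exact Finset.subset_insert _ _
    -- the missing point
    have hmiss : ∀ j, ∃ x ∈ T, S j = T.erase x := by
      intro j
      have h2 : (T \ S j).card = 1 := by
        rw [Finset.card_sdiff_of_subset (hsub j), hT, hc]
        omega
      obtain ⟨x, hx⟩ := Finset.card_eq_one.mp h2
      have hxm : x ∈ T \ S j := by rw [hx]; exact Finset.mem_singleton_self x
      refine ⟨x, (Finset.mem_sdiff.mp hxm).1, ?_⟩
      ext y
      simp only [Finset.mem_erase]
      constructor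
      · intro hy
        refine ⟨?_, hsub j hy⟩
        rintro rfl
        exact (Finset.mem_sdiff.mp hxm).2 hy
      · rintro ⟨hyx, hyT⟩
        by_contra hyn
        have : y ∈ T \ S j := Finset.mem_sdiff.mpr ⟨hyT, hyn⟩
        rw [hx, Finset.mem_singleton] at this
        exact hyx this
    choose τ hτT hτ using hmiss
    have hτinj : Function.Injective τ := by
      intro i j hij
      apply hSinj
      rw [hτ i, hτ j, hij]
    have hτsurj : ∀ x ∈ T, ∃ j, τ j = x := by
      let τ' : ι → T := fun j => ⟨τ j, hτT j⟩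
      have hinj : Function.Injective τ' := fun i j hij =>
        hτinj (congrArg Subtype.val hij)
      have hcard : Fintype.card T = Fintype.card ι := by
        rw [Fintype.card_coe, hT, hι]
      have hbij := (Fintype.bijective_iff_injective_and_card τ').mpr ⟨hinj, hcard.symm⟩
      intro x hx
      obtain ⟨j, hj⟩ := hbij.2 ⟨x, hx⟩
      exact ⟨j, congrArg Subtype.val hj⟩
    -- the weight is constant on `T`
    have hsum : ∀ j, a₀ (τ j) + (q - 1) = ∑ x ∈ T, a₀ x := by
      intro j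
      rw [← ha j, hτ j, Finset.add_sum_erase _ _ (hτT j)]
    have hconst : ∀ x ∈ T, ∀ y ∈ T, a₀ x = a₀ y := by
      intro x hx y hy
      obtain ⟨i, rfl⟩ := hτsurj x hx
      obtain ⟨j, rfl⟩ := hτsurj y hy
      have h5 := hsum i
      have h6 := hsum j
      omega
    have hd1 : d ∈ T := Finset.mem_union_left _ (Finset.mem_inter.mp hdD).1
    have h7 : ∑ x ∈ S j₁, a₀ x = q * a₀ d := by
      rw [Finset.sum_congr rfl (fun x hx => hconst x (hsub j₁ hx) d hd1), Finset.sum_const, hc,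
        smul_eq_mul]
    rw [ha j₁] at h7
    rcases Nat.eq_zero_or_pos (a₀ d) with h8 | h8
    · rw [h8] at h7
      omega
    · have : q * 1 ≤ q * a₀ d := Nat.mul_le_mul_left _ h8
      omega

/-- The Cauchy bound. -/
theorem bound_petal {q : ℕ} (hq : 2 ≤ q) (hι : Fintype.card ι = q + 1) {D : Finset X} {c : ι → X}
    (hcD : ∀ j, c j ∉ D) (hinj : Function.Injective c) (hD : D.card = q - 1) (ε : X → ℤ)
    (hε : ∀ x, -1 ≤ ε x) (hε1 : ∀ x ∈ D, ε x = 1) (hεc : ∀ j, ε (c j) = 1) (a : X → ℕ)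
    (h1 : ∀ j, ∑ x ∈ D, a x + a (c j) = (q - 1) * q)
    (h2 : ∑ x, a x ^ 2 = 1 + (q - 1) * q ^ 2)
    (h3 : ∑ x, ε x * (a x : ℤ) = (q - 1) * q - 1) (j : ι) : a (c j) = 0 := by
  obtain ⟨h', rfl⟩ : ∃ h', q = h' + 1 := ⟨q - 1, by omega⟩
  have hq1 : 1 ≤ h' := by omega
  simp only [Nat.add_sub_cancel] at *
  have hm : ∀ i, a (c i) = a (c j) := by
    intro i
    have h4 := h1 i
    have h5 := h1 j
    omega
  set m := a (c j) with hmdef
  let C : Finset X := Finset.univ.image c
  have hCcard : C.card = h' + 1 + 1 := by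
    rw [Finset.card_image_of_injective _ hinj, Finset.card_univ, hι]
  have hdisj : Disjoint D C := by
    rw [Finset.disjoint_left]
    intro x hx hxC
    obtain ⟨i, -, rfl⟩ := Finset.mem_image.mp hxC
    exact hcD i hx
  have hsplit : ∀ F : X → ℤ, ∑ x, F x =
      ∑ x ∈ D, F x + ∑ i, F (c i) + ∑ x ∈ (D ∪ C)ᶜ, F x := by
    intro F
    rw [← Finset.sum_add_sum_compl (D ∪ C), Finset.sum_union hdisj,
      Finset.sum_image (fun x _ y _ h => hinj h)]
  set s : ℤ := ∑ x ∈ D, (a x : ℤ) with hs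
  set s2 : ℤ := ∑ x ∈ D, (a x : ℤ) ^ 2 with hs2
  set r : ℤ := ∑ x ∈ (D ∪ C)ᶜ, (a x : ℤ) ^ 2 with hr
  set e : ℤ := ∑ x ∈ (D ∪ C)ᶜ, ε x * (a x : ℤ) with he
  have e1 : s + m = (h' : ℤ) * (h' + 1) := by
    have h4 := h1 j
    have : ((∑ x ∈ D, a x + a (c j) : ℕ) : ℤ) = ((h' * (h' + 1) : ℕ) : ℤ) := by rw [h4]
    push_cast at this
    exact this
  have e2 : s2 + ((h' : ℤ) + 2) * (m : ℤ) ^ 2 + r = 1 + (h' : ℤ) * (h' + 1) ^ 2 := by
    have h4 := hsplit (fun x => (a x : ℤ) ^ 2)
    have h5 : ∑ x, (a x : ℤ) ^ 2 = 1 + (h' : ℤ) * (h' + 1) ^ 2 := by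
      exact_mod_cast h2
    rw [h5] at h4
    rw [h4]
    have h6 : ∑ i, (a (c i) : ℤ) ^ 2 = ((h' : ℤ) + 2) * (m : ℤ) ^ 2 := by
      simp only [hm, Finset.sum_const, Finset.card_univ, hι, nsmul_eq_mul]
      push_cast
      ring
    rw [h6]
  have e3 : s + ((h' : ℤ) + 2) * (m : ℤ) + e = (h' : ℤ) * (h' + 1) - 1 := by
    have h4 := hsplit (fun x => ε x * (a x : ℤ))
    have h5 : ∑ x ∈ D, ε x * (a x : ℤ) = s :=
      Finset.sum_congr rfl fun x hx => by rw [hε1 x hx, one_mul]
    have h6 : ∑ i, ε (c i) * (a (c i) : ℤ) = ((h' : ℤ) + 2) * (m : ℤ) := by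
      simp only [hεc, one_mul, hm, Finset.sum_const, Finset.card_univ, hι, nsmul_eq_mul]
      push_cast
      ring
    rw [h5, h6] at h4
    push_cast at h3
    have h3' : ∑ x, ε x * (a x : ℤ) = (h' : ℤ) * (h' + 1) - 1 := by
      rw [h3]; ring
    rw [← h3', h4]
  have e4 : -e ≤ r := by
    rw [he, hr, ← Finset.sum_neg_distrib]
    refine Finset.sum_le_sum fun x _ => ?_
    have h5 := hε x
    have h6 : (0 : ℤ) ≤ a x := by positivity
    rcases Nat.eq_zero_or_pos (a x) with h7 | h7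
    · simp [h7]
    · have h8 : (1 : ℤ) ≤ a x := by exact_mod_cast h7
      nlinarith
  have e5 : s ^ 2 ≤ (h' : ℤ) * s2 := by
    have := sq_sum_le_card_mul_sum_sq (s := D) (f := fun x => (a x : ℤ))
    rw [hD] at this
    simpa using this
  have hm0 : (0 : ℤ) ≤ m := by positivity
  by_contra hne
  have hm1 : (1 : ℤ) ≤ m := by
    have : 1 ≤ m := Nat.one_le_iff_ne_zero.mpr hne
    exact_mod_cast this
  have hh : (1 : ℤ) ≤ h' := by exact_mod_cast hq1
  have hs' : s = (h' : ℤ) * (h' + 1) - m := by linarith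
  have he' : e = -1 - ((h' : ℤ) + 1) * m := by
    rw [hs'] at e3
    linarith
  have hr' : 1 + ((h' : ℤ) + 1) * m ≤ r := by
    rw [he'] at e4
    linarith
  have hs2' : s2 = 1 + (h' : ℤ) * (h' + 1) ^ 2 - ((h' : ℤ) + 2) * (m : ℤ) ^ 2 - r := by linarith
  rw [hs', hs2'] at e5
  have h6 : (h' : ℤ) * (1 + (h' : ℤ) * (h' + 1) ^ 2 - ((h' : ℤ) + 2) * (m : ℤ) ^ 2 - r) ≤
      (h' : ℤ) * (1 + (h' : ℤ) * (h' + 1) ^ 2 - ((h' : ℤ) + 2) * (m : ℤ) ^ 2 -
        (1 + ((h' : ℤ) + 1) * m)) := by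
    apply mul_le_mul_of_nonneg_left _ (by linarith)
    linarith
  have h7 := e5.trans h6
  have h8 : (m : ℤ) * ((m : ℤ) + (h' : ℤ) * ((h' : ℤ) + 2) * m - (h' : ℤ) * (h' + 1)) ≤ 0 := by
    nlinarith
  have h9 : (h' : ℤ) * ((h' : ℤ) + 2) * m ≥ (h' : ℤ) * ((h' : ℤ) + 2) * 1 :=
    mul_le_mul_of_nonneg_left hm1 (by positivity)
  have h10 : 0 < (m : ℤ) + (h' : ℤ) * ((h' : ℤ) + 2) * m - (h' : ℤ) * (h' + 1) := by nlinarith
  have h11 : 0 < (m : ℤ) * ((m : ℤ) + (h' : ℤ) * ((h' : ℤ) + 2) * m - (h' : ℤ) * (h' + 1)) :=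
    mul_pos (by linarith) h10
  linarith

/-- The combined statement. -/
theorem main_comb {q : ℕ} (hq : 2 ≤ q) (hι : Fintype.card ι = q + 1) (ε : X → ℤ)
    (hε : ∀ x, -1 ≤ ε x ∧ ε x ≤ 1) (f : ι → X → ℕ)
    (hff : ∀ j, ∑ x, f j x ^ 2 = q) (hfε : ∀ j, ∑ x, ε x * (f j x : ℤ) = q)
    (hij : ∀ i j, i ≠ j → ∑ x, f i x * f j x = q - 1) (a₀ : X → ℕ)
    (ha₀ : ∀ j, ∑ x, a₀ x * f j x = q - 1) :
    ∃ x₀ : X, (∃ j, f j x₀ = 1) ∧ ∀ a : X → ℕ, (∀ j, ∑ x, a x * f j x = (q - 1) * q) →
      ∑ x, a x ^ 2 = 1 + (q - 1) * q ^ 2 → ∑ x, ε x * (a x : ℤ) = (q - 1) * q - 1 → a x₀ = 0 := by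
  have h01 : ∀ j x, f j x = 0 ∨ (f j x = 1 ∧ ε x = 1) := fun j =>
    zero_one_of (f j) ε (fun x => (hε x).2) q (hff j) (hfε j)
  let S : ι → Finset X := fun j => Finset.univ.filter (fun x => f j x = 1)
  have hmemS : ∀ j x, x ∈ S j ↔ f j x = 1 := fun j x => by simp [S]
  have hsum : ∀ (g : X → ℕ) j, ∑ x, g x * f j x = ∑ x ∈ S j, g x := by
    intro g j
    rw [Finset.sum_filter]
    refine Finset.sum_congr rfl fun x _ => ?_
    rcases h01 j x with h | ⟨h, -⟩ <;> simp [h]
  have hc : ∀ j, (S j).card = q := by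
    intro j
    have h1 := hsum (fun _ => 1) j
    have h2 : ∑ x, 1 * f j x = q := by
      rw [← hff j]
      refine Finset.sum_congr rfl fun x _ => ?_
      rcases h01 j x with h | ⟨h, -⟩ <;> simp [h]
    rw [h2] at h1
    simp only [Finset.sum_const, smul_eq_mul, mul_one] at h1
    exact h1.symm
  have hi : ∀ i j, i ≠ j → (S i ∩ S j).card = q - 1 := by
    intro i j hne
    have h1 := hsum (f i) j
    rw [hij i j hne] at h1
    rw [h1]
    have h2 : S i ∩ S j = (S j).filter (fun x => f i x = 1) := by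
      ext x
      simp [hmemS]
      tauto
    rw [h2, Finset.card_filter]
    refine Finset.sum_congr rfl fun x _ => ?_
    rcases h01 i x with h | ⟨h, -⟩ <;> simp [h]
  have ha : ∀ j, ∑ x ∈ S j, a₀ x = q - 1 := fun j => by rw [← hsum, ha₀ j]
  obtain ⟨D, c, hcD, hS, hinj, hDc⟩ := sunflower_of_weight hq hι S hc hi a₀ ha
  have h1ι : 0 < Fintype.card ι := by omega
  obtain ⟨j₀⟩ := Fintype.card_pos_iff.mp h1ι
  have hε1 : ∀ j, ∀ x ∈ S j, ε x = 1 := by
    intro j x hx
    rcases h01 j x with h | ⟨-, h⟩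
    · rw [(hmemS j x).mp hx] at h
      omega
    · exact h
  refine ⟨c j₀, ⟨j₀, ?_⟩, ?_⟩
  · rw [← hmemS, hS]
    exact Finset.mem_insert_self _ _
  · intro a h1 h2 h3
    refine bound_petal hq hι hcD hinj hDc ε (fun x => (hε x).1) ?_ ?_ a ?_ h2 h3 j₀
    · intro x hx
      exact hε1 j₀ x (by rw [hS]; exact Finset.mem_insert_of_mem hx)
    · intro j
      exact hε1 j (c j) (by rw [hS]; exact Finset.mem_insert_self _ _)
    · intro j
      rw [← h1 j, hsum, hS, Finset.sum_insert (hcD j), add_comm]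

end Cfsg.Agent.Lib.ZT
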