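import Cfsg.Agent.Lib.ZT.G320a

/-!
# Groups of order `320` with derived subgroup of order `64` and Klein-four centre of it
-/

set_option autoImplicit false
set_option linter.unusedVariables false
set_option linter.unusedSectionVars false

namespace Cfsg.Agent.Lib.ZT

open scoped commutatorElement

section helpers

variable {W : Type*} [Group W]

theorem count5 {T : Type*} [Finite T] (f : T → T) (hf : ∀ t, f (f (f (f (f t)))) = t) :
    Nat.card T ≡ Nat.card {t // f t = t} [MOD 5] := by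
  classical
  haveI := Fintype.ofFinite T
  haveI : Fact (Nat.Prime 5) := ⟨by norm_num⟩
  let F : Function.End T := f
  have hF : F ^ 5 ^ 1 = 1 := by
    funext t
    exact hf t
  have h := Equiv.Perm.card_fixedPoints_modEq hF
  rw [Nat.card_eq_fintype_card, Nat.card_eq_fintype_card]
  have e : Fintype.card {t // f t = t} = Fintype.card (Function.fixedPoints F) :=
    Fintype.card_congr (Equiv.subtypeEquivRight (fun _ => Iff.rfl))
  rw [e]
  exact h

theorem all_of_card {T : Type*} [Finite T] (p : T → Prop) (h : Nat.card {t // p t} = Nat.card T) (t : T) : p t := by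
  have hinj : Function.Injective (Subtype.val : {t // p t} → T) := Subtype.val_injective
  have hb := hinj.bijective_of_nat_card_le (by rw [h])
  obtain ⟨a, rfl⟩ := hb.2 t
  exact a.2

theorem commutator_ne_top_of_nilp {P : Type*} [Group P] [Group.IsNilpotent P] [Nontrivial P] : commutator P ≠ ⊤ := by
  intro h
  obtain ⟨n, hn⟩ := Subgroup.nilpotent_iff_lowerCentralSeries.1 ‹_›
  have hall : ∀ k, (⊤ : Subgroup P).lowerCentralSeries k = ⊤ := by
    intro k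
    induction k with
    | zero => rfl
    | succ k ih =>
      rw [Subgroup.lowerCentralSeries_succ, ih]
      exact h
  rw [hall] at hn
  exact top_ne_bot hn

theorem sq_mul_of_central {a b : W} (h : ∀ g : W, g * cm b a = cm b a * g) :
    (a * b) ^ 2 = a ^ 2 * b ^ 2 * cm b a := by
  calc (a * b) ^ 2 = a * (cm b a * (a * b)) * b := by
        unfold cm; rw [pow_two]; group
    _ = a * ((a * b) * cm b a) * b := by rw [h (a * b)]
    _ = a * a * b * (cm b a * b) := by group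
    _ = a * a * b * (b * cm b a) := by rw [h b]
    _ = a ^ 2 * b ^ 2 * cm b a := by rw [pow_two, pow_two]; group

theorem cm_inv_left {a b : W} (h : ∀ g : W, g * cm a b = cm a b * g) : cm a⁻¹ b = (cm a b)⁻¹ := by
  have h' : ∀ g : W, g * cm b a = cm b a * g := by
    intro g
    rw [cm_swap]
    calc g * (cm a b)⁻¹ = (cm a b)⁻¹ * (cm a b * g) * (cm a b)⁻¹ := by group
      _ = (cm a b)⁻¹ * (g * cm a b) * (cm a b)⁻¹ := by rw [h g]
      _ = (cm a b)⁻¹ * g := by group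
  rw [cm_swap b a⁻¹, cm_inv_right h', cm_swap a b]
  simp

theorem mul_pow_central {z : W} (h : ∀ g : W, g * z = z * g) (a c : W) (k : ℕ) :
    (a * z ^ k) * (c * z) = (a * c) * z ^ (k + 1) := by
  have hk : ∀ g : W, g * z ^ k = z ^ k * g := fun g => Commute.pow_right (h g) k
  calc (a * z ^ k) * (c * z) = a * (z ^ k * c) * z := by group
    _ = a * (c * z ^ k) * z := by rw [hk c]
    _ = (a * c) * z ^ (k + 1) := by rw [pow_succ]; group

theorem cm_central_left {z : W} (h : ∀ g : W, g * z = z * g) (a b : W) : cm (a * z) b = cm a b := by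
  unfold cm
  calc a * z * b * (a * z)⁻¹ * b⁻¹ = a * (b * z) * z⁻¹ * a⁻¹ * b⁻¹ := by
        rw [h b]; group
    _ = a * b * a⁻¹ * b⁻¹ := by group

theorem cm_central_right {z : W} (h : ∀ g : W, g * z = z * g) (a b : W) : cm a (b * z) = cm a b := by
  rw [cm_swap, cm_central_left h, ← cm_swap]

theorem num_lemma (n : ℕ) (hd : n ∣ 64) (h4 : 4 ≤ n) (hm : n ≡ 4 [MOD 5]) : n = 4 ∨ n = 64 := by
  have hle := Nat.le_of_dvd (by norm_num) hd
  unfold Nat.ModEq at hm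
  interval_cases n <;> first
    | (left; rfl)
    | (right; rfl)
    | (exfalso; revert hd hm; decide)

end helpers

theorem exists_rel_of_hyp {G : Type*} [Group G] [Finite G] (hG : Nat.card G = 320)
    (hD : Nat.card (commutator G) = 64) (hZ : IsKleinFour (Subgroup.center (commutator G))) :
    ∃ x y : G, Rel320 x y ∧ Subgroup.closure ({x, y} : Set G) = ⊤ := by
  classical
  haveI f2 : Fact (Nat.Prime 2) := ⟨Nat.prime_two⟩
  haveI f5 : Fact (Nat.Prime 5) := ⟨by norm_num⟩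
  set Q : Subgroup G := commutator G with hQ
  have hQn : Q.Normal := by rw [hQ]; infer_instance
  let ZZ : Subgroup G := (Subgroup.center ↥Q).map Q.subtype
  have hZZ : ∀ z, z ∈ ZZ ↔ z ∈ Q ∧ ∀ u ∈ Q, u * z = z * u := by
    intro z
    constructor
    · rintro ⟨w, hw, rfl⟩
      refine ⟨w.2, fun u hu => ?_⟩
      have := (Subgroup.mem_center_iff.1 hw) ⟨u, hu⟩
      exact congrArg Subtype.val this
    · rintro ⟨hz, hc⟩
      exact ⟨⟨z, hz⟩, Subgroup.mem_center_iff.2 (fun u => Subtype.ext (hc u.1 u.2)), rfl⟩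
  have hZZQ : ZZ ≤ Q := fun z hz => ((hZZ z).1 hz).1
  have hZZcard : Nat.card ZZ = 4 := by
    rw [Subgroup.card_map_of_injective Q.subtype_injective]
    exact hZ.card_four
  have hsq : ∀ z ∈ ZZ, z ^ 2 = 1 := by
    rintro _ ⟨w, hw, rfl⟩
    have h1 : (⟨w, hw⟩ : Subgroup.center ↥Q) ^ 2 = 1 := by
      rw [← hZ.exponent_two]
      exact Monoid.pow_exponent_eq_one _
    have h2 := congrArg (fun t : Subgroup.center ↥Q => ((t : ↥Q) : G)) h1
    simpa using h2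
  obtain ⟨x, hx⟩ := exists_prime_orderOf_dvd_card' (G := G) 5 (by rw [hG]; norm_num)
  have x5 : x ^ 5 = 1 := by rw [← hx]; exact pow_orderOf_eq_one x
  have x1 : x ≠ 1 := by
    intro h
    rw [h, orderOf_one] at hx
    omega
  have xQ : x ∉ Q := by
    intro h
    have := Subgroup.orderOf_dvd_natCard Q h
    rw [hD, hx] at this
    omega
  have hquot : Nat.card (G ⧸ Q) = 5 := by
    have := Subgroup.card_eq_card_quotient_mul_card_subgroup Q
    rw [hG, hD] at this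
    omega
  have hdec : ∀ g : G, ∃ u ∈ Q, ∃ k : ℤ, g = u * x ^ k := by
    intro g
    have hne : (x : G ⧸ Q) ≠ 1 := by
      rwa [Ne, QuotientGroup.eq_one_iff]
    haveI := hQn
    have hm : (g : G ⧸ Q) ∈ Subgroup.zpowers (x : G ⧸ Q) := by
      exact mem_zpowers_of_prime_card hquot hne
    obtain ⟨k, hk⟩ := hm
    refine ⟨g * x ^ (-k), ?_, k, by group⟩
    rw [← QuotientGroup.eq_one_iff]
    have h3 : (((g * x ^ (-k) : G)) : G ⧸ Q) = (g : G ⧸ Q) * ((x : G ⧸ Q) ^ k)⁻¹ := by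
      simp
    rw [h3, ← hk]
    simp
  have hQconj : ∀ u ∈ Q, x * u * x⁻¹ ∈ Q := fun u hu => hQn.conj_mem u hu x
  have hQconj' : ∀ u ∈ Q, x⁻¹ * u * x ∈ Q := by
    intro u hu
    have := hQn.conj_mem u hu x⁻¹
    simpa using this
  have hiter : ∀ u : G, x * (x * (x * (x * (x * u * x⁻¹) * x⁻¹) * x⁻¹) * x⁻¹) * x⁻¹ = u := by
    intro u
    have h5 : x ^ 5 = x * x * x * x * x := by simp [pow_succ]
    have e : x * (x * (x * (x * (x * u * x⁻¹) * x⁻¹) * x⁻¹) * x⁻¹) * x⁻¹ = x ^ 5 * u * (x ^ 5)⁻¹ := by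
      rw [h5]; group
    rw [e, x5]; group
  have hZZconj : ∀ z ∈ ZZ, x * z * x⁻¹ ∈ ZZ := by
    intro z hz
    rw [hZZ]
    refine ⟨hQconj z ((hZZ z).1 hz).1, fun u hu => ?_⟩
    have h1 := ((hZZ z).1 hz).2 _ (hQconj' u hu)
    calc u * (x * z * x⁻¹) = x * ((x⁻¹ * u * x) * z) * x⁻¹ := by group
      _ = x * (z * (x⁻¹ * u * x)) * x⁻¹ := by rw [h1]
      _ = x * z * x⁻¹ * u := by group
  have hF1 : ∀ z ∈ ZZ, x * z * x⁻¹ = z := by
    let f : ↥ZZ → ↥ZZ := fun z => ⟨x * z.1 * x⁻¹, hZZconj _ z.2⟩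
    have hf : ∀ t, f (f (f (f (f t)))) = t := fun t => Subtype.ext (hiter t.1)
    have h1 := count5 f hf
    have h2 : Nat.card {t // f t = t} ≤ Nat.card ZZ :=
      Nat.card_le_card_of_injective _ Subtype.val_injective
    rw [hZZcard] at h1 h2
    have h3 : Nat.card {t // f t = t} = 4 := by
      unfold Nat.ModEq at h1
      omega
    have h4 := all_of_card (fun t => f t = t) (by rw [h3, hZZcard])
    intro z hz
    exact congrArg Subtype.val (h4 ⟨z, hz⟩)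
  have hZc : ∀ z ∈ ZZ, ∀ g : G, g * z = z * g := by
    intro z hz g
    obtain ⟨u, hu, k, rfl⟩ := hdec g
    have h1 := ((hZZ z).1 hz).2 u hu
    have h2 : x * z = z * x := by
      have := hF1 z hz
      calc x * z = x * z * x⁻¹ * x := by group
        _ = z * x := by rw [this]
    have h3 : x ^ k * z = z * x ^ k := (Commute.zpow_left h2 k)
    calc u * x ^ k * z = u * (x ^ k * z) := by group
      _ = u * (z * x ^ k) := by rw [h3]
      _ = (u * z) * x ^ k := by group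
      _ = z * (u * x ^ k) := by rw [h1]; group
  let C : Subgroup G := Subgroup.centralizer ({x} : Set G)
  have hC : ∀ u, u ∈ C ↔ x * u * x⁻¹ = u := by
    intro u
    show u ∈ Subgroup.centralizer ({x} : Set G) ↔ _
    rw [Subgroup.mem_centralizer_singleton_iff]
    constructor
    · intro h
      rw [← h]; group
    · intro h
      calc u * x = (x * u * x⁻¹) * x := by rw [h]
        _ = x * u := by group
  have hcount : ∀ H : Subgroup G, (∀ u ∈ H, x * u * x⁻¹ ∈ H) → Nat.card H ≡ Nat.card ↥(H ⊓ C) [MOD 5] := by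
    intro H hH
    let f : ↥H → ↥H := fun z => ⟨x * z.1 * x⁻¹, hH _ z.2⟩
    have hf : ∀ t, f (f (f (f (f t)))) = t := fun t => Subtype.ext (hiter t.1)
    have h1 := count5 f hf
    have e : Nat.card {t // f t = t} = Nat.card ↥(H ⊓ C) := by
      apply Nat.card_congr
      exact
      { toFun := fun t => ⟨t.1.1, t.1.2, (hC _).2 (congrArg Subtype.val t.2)⟩
        invFun := fun t => ⟨⟨t.1, t.2.1⟩, Subtype.ext ((hC _).1 t.2.2)⟩
        left_inv := fun t => rfl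
        right_inv := fun t => rfl }
    rwa [e] at h1
  have hZZC : ZZ ≤ C := fun z hz => (hC z).2 (hF1 z hz)
  have h64 : ∀ H : Subgroup G, H ≤ Q → Nat.card H ∣ 64 := fun H hH => by
    rw [← hD]; exact Subgroup.card_dvd_of_le hH
  have h4le : ∀ H : Subgroup G, ZZ ≤ H → H ≤ Q → 4 ≤ Nat.card H := by
    intro H h1 h2; rw [← hZZcard]; exact Subgroup.card_le_of_le h1
  have hCQ : Nat.card ↥(Q ⊓ C) = 4 := by
    have h1 := hcount Q hQconj
    rw [hD] at h1
    have h2 : Nat.card ↥(Q ⊓ C) ≡ 4 [MOD 5] := by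
      unfold Nat.ModEq at *; omega
    rcases num_lemma _ (h64 _ inf_le_left) (h4le _ (le_inf hZZQ hZZC) inf_le_left) h2 with h3 | h3
    · exact h3
    · exfalso
      have hle : Q ≤ C := by
        have : Q ⊓ C = Q := Subgroup.eq_of_le_of_card_ge inf_le_left (by rw [h3, hD])
        exact inf_eq_left.1 this
      have hxc : ∀ g : G, g * x = x * g := by
        intro g
        obtain ⟨u, hu, k, rfl⟩ := hdec g
        have h4 : x * u * x⁻¹ = u := (hC u).1 (hle hu)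
        have h5 : u * x = x * u := by
          calc u * x = (x * u * x⁻¹) * x := by rw [h4]
            _ = x * u := by group
        have h6 : x ^ k * x = x * x ^ k := (Commute.zpow_left (Commute.refl x) k)
        calc u * x ^ k * x = u * (x * x ^ k) := by rw [mul_assoc, h6]
          _ = (u * x) * x ^ k := by group
          _ = x * (u * x ^ k) := by rw [h5]; group
      have hk : ∀ (k : ℤ) (g : G), g * x ^ k = x ^ k * g := fun k g => Commute.zpow_right (hxc g) k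
      have hle2 : commutator G ≤ ⁅Q, Q⁆ := by
        rw [_root_.commutator_def, Subgroup.commutator_le]
        intro g₁ _ g₂ _
        obtain ⟨u, hu, k, rfl⟩ := hdec g₁
        obtain ⟨v, hv, l, rfl⟩ := hdec g₂
        have e : ⁅u * x ^ k, v * x ^ l⁆ = ⁅u, v⁆ := by
          show cm (u * x ^ k) (v * x ^ l) = cm u v
          rw [cm_central_left (hk k), cm_central_right (hk l)]
        rw [e]
        exact Subgroup.commutator_mem_commutator hu hv
      have hp : IsPGroup 2 ↥Q := IsPGroup.of_card (n := 6) (by rw [hD]; norm_num)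
      haveI : Group.IsNilpotent ↥Q := hp.isNilpotent
      haveI : Nontrivial ↥Q := Finite.one_lt_card_iff_nontrivial.1 (by rw [hD]; norm_num)
      apply commutator_ne_top_of_nilp (P := ↥Q)
      rw [eq_top_iff]
      intro u _
      have h7 : u.1 ∈ ⁅Q, Q⁆ := hle2 u.2
      rw [← Subgroup.map_subtype_commutator] at h7
      obtain ⟨w, hw, hwu⟩ := h7
      have : w = u := Subtype.ext hwu
      rwa [← this]
  have hZZeq : Q ⊓ C = ZZ := (Subgroup.eq_of_le_of_card_ge (le_inf hZZQ hZZC) (by rw [hCQ, hZZcard])).symm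
  have hF2 : ∀ u ∈ Q, x * u * x⁻¹ = u → u ∈ ZZ := by
    intro u hu h
    rw [← hZZeq]
    exact ⟨hu, (hC u).2 h⟩
  have hF3 : ∀ H : Subgroup G, ZZ ≤ H → H ≤ Q → (∀ u ∈ H, x * u * x⁻¹ ∈ H) → H = ZZ ∨ H = Q := by
    intro H h1 h2 h3
    have e : H ⊓ C = ZZ := by
      apply le_antisymm
      · intro u hu
        exact hF2 u (h2 hu.1) ((hC u).1 hu.2)
      · exact le_inf h1 hZZC
    have h4 := hcount H h3
    rw [e, hZZcard] at h4
    rcases num_lemma _ (h64 _ h2) (h4le _ h1 h2) h4 with h5 | h5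
    · left
      exact (Subgroup.eq_of_le_of_card_ge h1 (by rw [h5, hZZcard])).symm
    · right
      exact Subgroup.eq_of_le_of_card_ge h2 (by rw [hD, h5])
  -- the quotient modulo the centre of `Q`
  have hQb : Nat.card (↥Q ⧸ Subgroup.center ↥Q) = 16 := by
    have := Subgroup.card_eq_card_quotient_mul_card_subgroup (Subgroup.center ↥Q)
    rw [hD, hZ.card_four] at this
    omega
  have hpQb : IsPGroup 2 (↥Q ⧸ Subgroup.center ↥Q) := IsPGroup.of_card (n := 4) (by rw [hQb]; norm_num)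
  haveI : Nontrivial (↥Q ⧸ Subgroup.center ↥Q) := Finite.one_lt_card_iff_nontrivial.1 (by rw [hQb]; norm_num)
  haveI := hpQb.center_nontrivial
  obtain ⟨ub, hub⟩ := exists_ne (1 : Subgroup.center (↥Q ⧸ Subgroup.center ↥Q))
  obtain ⟨u₀, hu₀⟩ := QuotientGroup.mk_surjective ub.1
  have hmemZZ : ∀ w : ↥Q, w ∈ Subgroup.center ↥Q → w.1 ∈ ZZ := fun w hw => ⟨w, hw, rfl⟩
  have hmemZZ' : ∀ w : ↥Q, w.1 ∈ ZZ → w ∈ Subgroup.center ↥Q := by
    rintro w ⟨w', hw', he⟩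
    have : w' = w := Subtype.ext he
    rwa [← this]
  have hy'Q : u₀.1 ∈ Q := u₀.2
  have hy'ZZ : u₀.1 ∉ ZZ := by
    intro h
    apply hub
    apply Subtype.ext
    rw [← hu₀]
    exact (QuotientGroup.eq_one_iff _).2 (hmemZZ' _ h)
  -- `Q` has class at most two
  let H2 : Subgroup G :=
    { carrier := {u | u ∈ Q ∧ ∀ v ∈ Q, cm u v ∈ ZZ}
      mul_mem' := by
        rintro a b ⟨ha, ha'⟩ ⟨hb, hb'⟩
        refine ⟨Q.mul_mem ha hb, fun v hv => ?_⟩
        rw [cm_mul_left (hZc _ (hb' v hv))]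
        exact ZZ.mul_mem (ha' v hv) (hb' v hv)
      one_mem' := ⟨Q.one_mem, fun v hv => by
        have : cm (1 : G) v = 1 := by unfold cm; group
        rw [this]; exact ZZ.one_mem⟩
      inv_mem' := by
        rintro a ⟨ha, ha'⟩
        refine ⟨Q.inv_mem ha, fun v hv => ?_⟩
        rw [cm_inv_left (hZc _ (ha' v hv))]
        exact ZZ.inv_mem (ha' v hv) }
  have hH2 : H2 = Q := by
    have hy2 : u₀.1 ∈ H2 := by
      refine ⟨hy'Q, fun v hv => ?_⟩
      have hcomm := (Subgroup.mem_center_iff.1 ub.2) ((⟨v, hv⟩ : ↥Q) : ↥Q ⧸ Subgroup.center ↥Q)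
      rw [← hu₀] at hcomm
      have h1 : u₀ * ⟨v, hv⟩ * u₀⁻¹ * (⟨v, hv⟩ : ↥Q)⁻¹ ∈ Subgroup.center ↥Q := by
        rw [← QuotientGroup.eq_one_iff]
        have h3 : ((u₀ : ↥Q ⧸ Subgroup.center ↥Q)) * ((⟨v, hv⟩ : ↥Q) : ↥Q ⧸ Subgroup.center ↥Q) = ((⟨v, hv⟩ : ↥Q) : ↥Q ⧸ Subgroup.center ↥Q) * (u₀ : ↥Q ⧸ Subgroup.center ↥Q) := hcomm.symm
        have e : ((u₀ * ⟨v, hv⟩ * u₀⁻¹ * (⟨v, hv⟩ : ↥Q)⁻¹ : ↥Q) : ↥Q ⧸ Subgroup.center ↥Q) =
            (u₀ : ↥Q ⧸ Subgroup.center ↥Q) * ((⟨v, hv⟩ : ↥Q) : ↥Q ⧸ Subgroup.center ↥Q) * (u₀ : ↥Q ⧸ Subgroup.center ↥Q)⁻¹ * ((⟨v, hv⟩ : ↥Q) : ↥Q ⧸ Subgroup.center ↥Q)⁻¹ := rfl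
        rw [e, h3]
        group
      exact hmemZZ _ h1
    have hA : ZZ ≤ H2 := by
      intro z hz
      refine ⟨hZZQ hz, fun v hv => ?_⟩
      have : cm z v = 1 := by
        unfold cm
        rw [← hZc z hz v]
        group
      rw [this]
      exact ZZ.one_mem
    have hB : ∀ u ∈ H2, x * u * x⁻¹ ∈ H2 := by
      rintro u ⟨hu, hu'⟩
      refine ⟨hQconj u hu, fun v hv => ?_⟩
      have h1 := hZZconj _ (hu' _ (hQconj' v hv))
      rw [cm_conj] at h1
      have h2 : x * (x⁻¹ * v * x) * x⁻¹ = v := by group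
      rwa [h2] at h1
    rcases hF3 H2 hA (fun u hu => hu.1) hB with h | h
    · exfalso
      apply hy'ZZ
      rw [← h]
      exact hy2
    · exact h
  have hF4 : ∀ a ∈ Q, ∀ b ∈ Q, cm a b ∈ ZZ := by
    intro a ha b hb
    have : a ∈ H2 := by rw [hH2]; exact ha
    exact this.2 b hb
  have hcc : ∀ a ∈ Q, ∀ b ∈ Q, ∀ g : G, g * cm a b = cm a b * g :=
    fun a ha b hb g => hZc _ (hF4 a ha b hb) g
  -- squares
  let H3 : Subgroup G :=
    { carrier := {u | u ∈ Q ∧ u ^ 2 ∈ ZZ}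
      mul_mem' := by
        rintro a b ⟨ha, ha'⟩ ⟨hb, hb'⟩
        refine ⟨Q.mul_mem ha hb, ?_⟩
        rw [sq_mul_of_central (hcc b hb a ha)]
        exact ZZ.mul_mem (ZZ.mul_mem ha' hb') (hF4 b hb a ha)
      one_mem' := ⟨Q.one_mem, by simp [ZZ.one_mem]⟩
      inv_mem' := by
        rintro a ⟨ha, ha'⟩
        refine ⟨Q.inv_mem ha, ?_⟩
        rw [inv_pow]
        exact ZZ.inv_mem ha' }
  have hH3 : H3 = Q := by
    obtain ⟨wb, hwb⟩ := exists_prime_orderOf_dvd_card' (G := ↥Q ⧸ Subgroup.center ↥Q) 2 (by rw [hQb]; norm_num)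
    obtain ⟨w₀, hw₀⟩ := QuotientGroup.mk_surjective wb
    have hw1 : w₀.1 ∉ ZZ := by
      intro h
      have h1 : wb = 1 := by
        rw [← hw₀]
        exact (QuotientGroup.eq_one_iff _).2 (hmemZZ' _ h)
      rw [h1, orderOf_one] at hwb
      omega
    have hw2 : w₀.1 ∈ H3 := by
      refine ⟨w₀.2, ?_⟩
      have h1 : wb ^ 2 = 1 := by rw [← hwb]; exact pow_orderOf_eq_one wb
      rw [← hw₀] at h1
      have h2 : w₀ ^ 2 ∈ Subgroup.center ↥Q := by
        rw [← QuotientGroup.eq_one_iff]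
        push_cast
        exact h1
      exact hmemZZ _ h2
    have hA : ZZ ≤ H3 := by
      intro z hz
      refine ⟨hZZQ hz, ?_⟩
      rw [hsq z hz]
      exact ZZ.one_mem
    have hB : ∀ u ∈ H3, x * u * x⁻¹ ∈ H3 := by
      rintro u ⟨hu, hu'⟩
      refine ⟨hQconj u hu, ?_⟩
      have h1 : (x * u * x⁻¹) ^ 2 = x * u ^ 2 * x⁻¹ := by
        rw [pow_two, pow_two]; group
      rw [h1]
      exact hZZconj _ hu'
    rcases hF3 H3 hA (fun u hu => hu.1) hB with h | h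
    · exfalso
      apply hw1
      rw [← h]
      exact hw2
    · exact h
  have hF5 : ∀ a ∈ Q, a ^ 2 ∈ ZZ := by
    intro a ha
    have : a ∈ H3 := by rw [hH3]; exact ha
    exact this.2
  -- the normalised generator
  have hyQ : ∀ u ∈ Q, ∀ i, yy x u i ∈ Q := by
    intro u hu i
    induction i with
    | zero => rw [yy_zero]; exact hu
    | succ k ih => rw [yy_succ]; exact hQconj _ ih
  obtain ⟨y', hy'⟩ : ∃ y', y' = u₀.1 := ⟨_, rfl⟩
  rw [← hy'] at hy'Q hy'ZZ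
  obtain ⟨P', hP'⟩ : ∃ P', P' = y' * yy x y' 1 * yy x y' 2 * yy x y' 3 * yy x y' 4 := ⟨_, rfl⟩
  have hP'Q : P' ∈ Q := by
    rw [hP']
    exact Q.mul_mem (Q.mul_mem (Q.mul_mem (Q.mul_mem hy'Q (hyQ _ hy'Q 1)) (hyQ _ hy'Q 2)) (hyQ _ hy'Q 3)) (hyQ _ hy'Q 4)
  have hs0 : x * y' * x⁻¹ = yy x y' 1 := by rw [yy_succ, yy_zero]
  have hs1 : x * yy x y' 1 * x⁻¹ = yy x y' 2 := (yy_succ x y' 1).symm
  have hs2 : x * yy x y' 2 * x⁻¹ = yy x y' 3 := (yy_succ x y' 2).symm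
  have hs3 : x * yy x y' 3 * x⁻¹ = yy x y' 4 := (yy_succ x y' 3).symm
  have hs4 : x * yy x y' 4 * x⁻¹ = y' := by
    rw [← yy_succ, yy_five y' x5]
  obtain ⟨w, hw⟩ : ∃ w, w = cm y'⁻¹ P' := ⟨_, rfl⟩
  have hwZ : w ∈ ZZ := by
    rw [hw]
    exact hF4 _ (Q.inv_mem hy'Q) _ hP'Q
  have hxP : x * P' * x⁻¹ = w * P' := by
    have e : x * P' * x⁻¹ = yy x y' 1 * yy x y' 2 * yy x y' 3 * yy x y' 4 * y' := by
      have e0 : x * (y' * yy x y' 1 * yy x y' 2 * yy x y' 3 * yy x y' 4) * x⁻¹ =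
          (x * y' * x⁻¹) * (x * yy x y' 1 * x⁻¹) * (x * yy x y' 2 * x⁻¹) * (x * yy x y' 3 * x⁻¹) * (x * yy x y' 4 * x⁻¹) := by
        group
      rw [hP', e0, hs0, hs1, hs2, hs3, hs4]
    rw [e, hw, hP']
    unfold cm
    group
  have hxw : x * w * x⁻¹ = w := hF1 w hwZ
  have step : ∀ t, x * (w * t) * x⁻¹ = w * (x * t * x⁻¹) := by
    intro t
    calc x * (w * t) * x⁻¹ = (x * w * x⁻¹) * (x * t * x⁻¹) := by group
      _ = w * (x * t * x⁻¹) := by rw [hxw]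
  have h5 := hiter P'
  simp only [hxP, step] at h5
  have hww : w * w = 1 := by
    have := hsq w hwZ
    rwa [pow_two] at this
  have hw1 : w = 1 := by
    have e : w * (w * (w * (w * (w * P')))) = (w * w) * ((w * w) * (w * P')) := by group
    rw [e, hww, one_mul, one_mul] at h5
    exact mul_right_cancel (h5.trans (one_mul P').symm)
  have hfix : x * P' * x⁻¹ = P' := by rw [hxP, hw1, one_mul]
  have hP'Z : P' ∈ ZZ := hF2 P' hP'Q hfix
  obtain ⟨y, hy⟩ : ∃ y, y = y' * P' := ⟨_, rfl⟩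
  have hPc := hZc P' hP'Z
  have hyi : ∀ i, yy x y i = yy x y' i * P' := by
    intro i
    rw [hy]
    unfold yy
    have e : x ^ i * (y' * P') * (x ^ i)⁻¹ = x ^ i * y' * (x ^ i)⁻¹ * (x ^ i * P' * (x ^ i)⁻¹) := by group
    rw [e, conj_of_central hPc]
  have hprod : y * yy x y 1 * yy x y 2 * yy x y 3 * yy x y 4 = 1 := by
    rw [hyi 1, hyi 2, hyi 3, hyi 4, hy]
    have e0 : y' * P' = y' * P' ^ 1 := by rw [pow_one]
    rw [e0, mul_pow_central hPc, mul_pow_central hPc, mul_pow_central hPc, mul_pow_central hPc, ← hP']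
    have h6 : P' ^ 2 = 1 := hsq P' hP'Z
    have h7 : P' * P' ^ (1 + 1 + 1 + 1 + 1) = (P' ^ 2) ^ 3 := by group
    rw [h7, h6, one_pow]
  have hyQ0 : y ∈ Q := by
    rw [hy]
    exact Q.mul_mem hy'Q hP'Q
  have hyZ : y ∉ ZZ := by
    intro h
    apply hy'ZZ
    have : y' = y * P'⁻¹ := by rw [hy]; group
    rw [this]
    exact ZZ.mul_mem h (ZZ.inv_mem hP'Z)
  obtain ⟨Y1, hY1⟩ : ∃ t, t = yy x y 1 := ⟨_, rfl⟩
  obtain ⟨Y2, hY2⟩ : ∃ t, t = yy x y 2 := ⟨_, rfl⟩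
  obtain ⟨Y3, hY3⟩ : ∃ t, t = yy x y 3 := ⟨_, rfl⟩
  obtain ⟨Y4, hY4⟩ : ∃ t, t = yy x y 4 := ⟨_, rfl⟩
  have hY1Q : Y1 ∈ Q := hY1 ▸ hyQ _ hyQ0 1
  have hY2Q : Y2 ∈ Q := hY2 ▸ hyQ _ hyQ0 2
  have hY3Q : Y3 ∈ Q := hY3 ▸ hyQ _ hyQ0 3
  have hY4Q : Y4 ∈ Q := hY4 ▸ hyQ _ hyQ0 4
  have hsx1 : x * y * x⁻¹ = Y1 := by rw [hY1, yy_succ, yy_zero]
  have hsx2 : x * Y1 * x⁻¹ = Y2 := by rw [hY1, hY2, yy_succ x y 1]
  have hsx3 : x * Y2 * x⁻¹ = Y3 := by rw [hY2, hY3, yy_succ x y 2]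
  have hb1Z : cm y Y1 ∈ ZZ := hF4 _ hyQ0 _ hY1Q
  have hb2Z : cm y Y2 ∈ ZZ := hF4 _ hyQ0 _ hY2Q
  have hb1c := hZc _ hb1Z
  have hb2c := hZc _ hb2Z
  have hb1s := hsq _ hb1Z
  have hb2s := hsq _ hb2Z
  obtain ⟨b1, hb1⟩ : ∃ t, t = cm y Y1 := ⟨_, rfl⟩
  obtain ⟨b2, hb2⟩ : ∃ t, t = cm y Y2 := ⟨_, rfl⟩
  rw [← hb1] at hb1Z hb1c hb1s
  rw [← hb2] at hb2Z hb2c hb2s
  have hb1inv : b1⁻¹ = b1 := by
    rw [pow_two] at hb1s
    exact inv_eq_of_mul_eq_one_left hb1s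
  have hb2inv : b2⁻¹ = b2 := by
    rw [pow_two] at hb2s
    exact inv_eq_of_mul_eq_one_left hb2s
  have hcZ : y ^ 2 ∈ ZZ := hF5 y hyQ0
  have hcc2 := hZc _ hcZ
  have hc2 : (y ^ 2) * (y ^ 2) = 1 := by
    have := hsq _ hcZ
    rwa [pow_two (y ^ 2)] at this
  have hsi : ∀ i, (yy x y i) ^ 2 = y ^ 2 := by
    intro i
    unfold yy
    have : (x ^ i * y * (x ^ i)⁻¹) ^ 2 = x ^ i * y ^ 2 * (x ^ i)⁻¹ := by
      rw [pow_two, pow_two]; group
    rw [this, conj_of_central hcc2]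
  have c12 : cm Y1 Y2 = b1 := by
    have := cm_conj x y Y1
    rw [hsx1, hsx2, ← hb1, conj_of_central hb1c] at this
    exact this.symm
  have c23 : cm Y2 Y3 = b1 := by
    have := cm_conj x Y1 Y2
    rw [hsx2, hsx3, c12, conj_of_central hb1c] at this
    exact this.symm
  have c13 : cm Y1 Y3 = b2 := by
    have := cm_conj x y Y2
    rw [hsx1, hsx3, ← hb2, conj_of_central hb2c] at this
    exact this.symm
  have c03 : cm y Y3 = b2 := by
    have e1 : x ^ 2 * y * (x ^ 2)⁻¹ = Y2 := by rw [hY2]; rfl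
    have e2 : x ^ 2 * Y3 * (x ^ 2)⁻¹ = y := by
      have : yy x y 5 = x ^ 2 * yy x y 3 * (x ^ 2)⁻¹ := yy_add x y 3 2
      rw [yy_five y x5] at this
      rw [hY3]
      exact this.symm
    have e3 := cm_conj (x ^ 2) y Y3
    rw [e1, e2] at e3
    have e5 : cm Y2 y = b2 := by
      rw [cm_swap, ← hb2]
      exact hb2inv
    rw [e5] at e3
    have e4 : cm y Y3 = (x ^ 2)⁻¹ * b2 * (x ^ 2) := by
      rw [← e3]; group
    rw [e4, hb2c]; group
  have hysq : y ^ 2 = b1 * b2 := by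
    have hq1 : y * Y1 * Y2 * Y3 = Y4⁻¹ := by
      rw [hY1, hY2, hY3, hY4]
      exact eq_inv_of_mul_eq_one_left hprod
    have h1 : (y * Y1 * (Y2 * Y3)) ^ 2 = y ^ 2 := by
      have : y * Y1 * (Y2 * Y3) = Y4⁻¹ := by rw [← hq1]; group
      rw [this, inv_pow, hY4, hsi 4]
      exact inv_eq_of_mul_eq_one_left hc2
    have hsY1 : Y1 ^ 2 = y ^ 2 := by rw [hY1]; exact hsi 1
    have hsY2 : Y2 ^ 2 = y ^ 2 := by rw [hY2]; exact hsi 2
    have hsY3 : Y3 ^ 2 = y ^ 2 := by rw [hY3]; exact hsi 3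
    have h2 : (y * Y1) ^ 2 = b1 := by
      rw [sq_mul_of_central (hcc Y1 hY1Q y hyQ0), hsY1, hc2, one_mul, cm_swap, ← hb1, hb1inv]
    have h3 : (Y2 * Y3) ^ 2 = b1 := by
      rw [sq_mul_of_central (hcc Y3 hY3Q Y2 hY2Q), hsY2, hsY3, hc2, one_mul, cm_swap, c23, hb1inv]
    have h4 : cm (Y2 * Y3) (y * Y1) = (b2 * b1) * (b2 * b2) := by
      rw [cm_mul_left (hcc Y3 hY3Q _ (Q.mul_mem hyQ0 hY1Q)), cm_mul_right (hcc Y2 hY2Q _ hY1Q),
        cm_mul_right (hcc Y3 hY3Q _ hY1Q), cm_swap y Y2, cm_swap Y1 Y2, cm_swap y Y3, cm_swap Y1 Y3,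
        ← hb2, c12, c03, c13, hb2inv, hb1inv]
    have h5 := sq_mul_of_central (hcc _ (Q.mul_mem hY2Q hY3Q) _ (Q.mul_mem hyQ0 hY1Q))
    rw [h1, h2, h3, h4] at h5
    rw [h5]
    have hbb : b2 * b2 = 1 := by rwa [pow_two] at hb2s
    have hbb1 : b1 * b1 = 1 := by rwa [pow_two] at hb1s
    rw [hbb, hbb1, mul_one, one_mul]
    exact hb1c b2
  -- generation
  let K : Subgroup G := Subgroup.closure ({x, y} : Set G)
  have hxK : x ∈ K := Subgroup.subset_closure (Or.inl rfl)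
  have hyK : y ∈ K := Subgroup.subset_closure (Or.inr rfl)
  have hH0 : (K ⊓ Q) ⊔ ZZ = Q := by
    have hA : ZZ ≤ (K ⊓ Q) ⊔ ZZ := le_sup_right
    have hB : (K ⊓ Q) ⊔ ZZ ≤ Q := sup_le inf_le_right hZZQ
    have hC' : ∀ u ∈ (K ⊓ Q) ⊔ ZZ, x * u * x⁻¹ ∈ (K ⊓ Q) ⊔ ZZ := by
      have hle : (K ⊓ Q) ⊔ ZZ ≤ ((K ⊓ Q) ⊔ ZZ).comap (MulAut.conj x).toMonoidHom := by
        apply sup_le
        · intro u hu
          apply Subgroup.mem_sup_left
          exact ⟨K.mul_mem (K.mul_mem hxK hu.1) (K.inv_mem hxK), hQconj u hu.2⟩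
        · intro u hu
          apply Subgroup.mem_sup_right
          exact hZZconj u hu
      intro u hu
      exact hle hu
    rcases hF3 _ hA hB hC' with h | h
    · exfalso
      apply hyZ
      rw [← h]
      exact Subgroup.mem_sup_left ⟨hyK, hyQ0⟩
    · exact h
  haveI hZZn : ZZ.Normal := by
    constructor
    intro z hz g
    have : g * z * g⁻¹ = z := by
      rw [hZc z hz g]; group
    rw [this]; exact hz
  have htop : ∀ g : G, g ∈ K ⊔ ZZ := by
    intro g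
    obtain ⟨u, hu, k, rfl⟩ := hdec g
    refine Subgroup.mul_mem _ ?_ (Subgroup.mem_sup_left (K.zpow_mem hxK k))
    rw [← hH0] at hu
    exact (sup_le_sup_right inf_le_left ZZ) hu
  have hdec2 : ∀ g : G, ∃ k ∈ K, ∃ z ∈ ZZ, g = k * z := by
    intro g
    have h1 := htop g
    have h2 : g ∈ ((K ⊔ ZZ : Subgroup G) : Set G) := h1
    rw [Subgroup.mul_normal] at h2
    obtain ⟨k, hk, z, hz, rfl⟩ := Set.mem_mul.1 h2
    exact ⟨k, hk, z, hz, rfl⟩
  have hQK : Q ≤ K := by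
    rw [hQ, _root_.commutator_def, Subgroup.commutator_le]
    intro g₁ _ g₂ _
    obtain ⟨k, hk, z, hz, rfl⟩ := hdec2 g₁
    obtain ⟨l, hl, z', hz', rfl⟩ := hdec2 g₂
    have e : ⁅k * z, l * z'⁆ = k * l * k⁻¹ * l⁻¹ := by
      show cm (k * z) (l * z') = cm k l
      rw [cm_central_left (hZc z hz), cm_central_right (hZc z' hz')]
    rw [e]
    exact K.mul_mem (K.mul_mem (K.mul_mem hk hl) (K.inv_mem hk)) (K.inv_mem hl)
  refine ⟨x, y, ?_, ?_⟩
  · refine ⟨x5, ?_, ?_, ?_, ?_, ?_, hprod⟩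
    · rw [← hY1, ← hb1]; exact hb1c
    · rw [← hY2, ← hb2]; exact hb2c
    · rw [← hY1, ← hb1]; exact hb1s
    · rw [← hY2, ← hb2]; exact hb2s
    · rw [← hY1, ← hY2, ← hb1, ← hb2]; exact hysq
  · rw [eq_top_iff]
    intro g _
    obtain ⟨u, hu, k, rfl⟩ := hdec g
    exact K.mul_mem (hQK hu) (K.zpow_mem hxK k)

end Cfsg.Agent.Lib.ZT
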