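import Cfsg.Agent.Lib.ZT.SU3Syl
import Cfsg.Agent.Lib.ZT.G320b

/-!
# The centraliser of an involution in `SU₃(4)`
-/

set_option autoImplicit false
set_option linter.unusedVariables false
set_option linter.unusedSectionVars false

namespace Cfsg.Agent.Lib.ZT

open Matrix Cfsg
open scoped commutatorElement

section

variable {F : Type*} [Field F] [Fintype F]

/-- The underlying matrix. -/
abbrev mm (g : SU 3 F (2 ^ 2)) : Matrix (Fin 3) (Fin 3) F := g.1.1

theorem mm_mul (g h : SU 3 F (2 ^ 2)) : mm (g * h) = mm g * mm h := rfl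

theorem mm_one : mm (1 : SU 3 F (2 ^ 2)) = 1 := rfl

/-- The involution. -/
def tEl (hF : Fintype.card F = (2 ^ 2) ^ 2) : SU 3 F (2 ^ 2) :=
  ⟨⟨suMat (2 ^ 2) 0 1, suMat_det (two_eq_zero_of_card hF) _ _ _⟩, fun u v => suMat_herm hF (by
    have h2 := two_eq_zero_of_card hF
    simp
    linear_combination h2) u v⟩

theorem tEl_mat (hF : Fintype.card F = (2 ^ 2) ^ 2) : mm (tEl hF) = !![0, 1, 0; 1, 0, 0; 0, 0, 1] := by
  have h2 := two_eq_zero_of_card hF
  have h11 : (1 : F) + 1 = 0 := by linear_combination h2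
  show suMat (2 ^ 2) (0 : F) 1 = _
  ext i j
  fin_cases i <;> fin_cases j <;> simp [suMat, h11]

theorem herm_col (g : SU 3 F (2 ^ 2)) (i j : Fin 3) :
    ∑ k, mm g k i * (mm g k j) ^ (2 ^ 2) = if i = j then 1 else 0 := by
  have h := g.2 (Pi.single i 1) (Pi.single j 1)
  have h1 : ∀ l : Fin 3, (slToMat 3 F g.1) *ᵥ (Pi.single l (1 : F)) = fun k => mm g k l := by
    intro l
    rw [Matrix.mulVec_single_one]
    rfl
  rw [h1, h1] at h
  unfold hermForm at h
  rw [h]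
  fin_cases i <;> fin_cases j <;> simp [Fin.sum_univ_three]

theorem gam_shape (hF : Fintype.card F = (2 ^ 2) ^ 2) {g : SU 3 F (2 ^ 2)}
    (hg : g ∈ Subgroup.centralizer ({tEl hF} : Set (SU 3 F (2 ^ 2)))) :
    mm g 1 1 = mm g 0 0 ∧ mm g 1 0 = mm g 0 1 ∧ mm g 1 2 = mm g 0 2 ∧ mm g 2 1 = mm g 2 0 := by
  rw [Subgroup.mem_centralizer_singleton_iff] at hg
  have h : mm g * mm (tEl hF) = mm (tEl hF) * mm g := congrArg mm hg
  rw [tEl_mat] at h
  have e1 := congrFun (congrFun h 0) 0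
  have e2 := congrFun (congrFun h 0) 1
  have e3 := congrFun (congrFun h 0) 2
  have e4 := congrFun (congrFun h 2) 0
  simp [Matrix.mul_apply, Fin.sum_univ_three] at e1 e2 e3 e4
  exact ⟨e2.symm, e1.symm, e3.symm, e4⟩

/-- The eigenvalue. -/
def eE (g : SU 3 F (2 ^ 2)) : F := mm g 0 0 + mm g 0 1

theorem eE_mul (hF : Fintype.card F = (2 ^ 2) ^ 2) {g h : SU 3 F (2 ^ 2)}
    (hh : h ∈ Subgroup.centralizer ({tEl hF} : Set (SU 3 F (2 ^ 2)))) :
    eE (g * h) = eE g * eE h := by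
  have h2 := two_eq_zero_of_card hF
  obtain ⟨e1, e2, e3, e4⟩ := gam_shape hF hh
  unfold eE
  rw [mm_mul]
  simp only [Matrix.mul_apply, Fin.sum_univ_three]
  rw [e1, e2, e4]
  linear_combination (mm g 0 2 * mm h 2 0) * h2

theorem eE_norm (hF : Fintype.card F = (2 ^ 2) ^ 2) {g : SU 3 F (2 ^ 2)}
    (hg : g ∈ Subgroup.centralizer ({tEl hF} : Set (SU 3 F (2 ^ 2)))) :
    eE g * eE g ^ (2 ^ 2) = 1 := by
  have h2 := two_eq_zero_of_card hF
  obtain ⟨e1, e2, e3, e4⟩ := gam_shape hF hg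
  have h00 := herm_col g 0 0
  have h01 := herm_col g 0 1
  simp only [Fin.sum_univ_three, e2, if_true] at h00
  simp only [Fin.sum_univ_three, e1, e2, e4] at h01
  simp at h01
  unfold eE
  rw [frob_add h2]
  linear_combination h00 + h01 - (mm g 2 0 * mm g 2 0 ^ (2 ^ 2)) * h2

/-- The centraliser. -/
abbrev Gam (hF : Fintype.card F = (2 ^ 2) ^ 2) : Subgroup (SU 3 F (2 ^ 2)) :=
  Subgroup.centralizer ({tEl hF} : Set (SU 3 F (2 ^ 2)))

theorem eE_ne_zero (hF : Fintype.card F = (2 ^ 2) ^ 2) {g : SU 3 F (2 ^ 2)} (hg : g ∈ Gam hF) : eE g ≠ 0 := by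
  intro h
  have := eE_norm hF hg
  rw [h] at this
  simp at this

/-- The eigenvalue homomorphism. -/
noncomputable def phi (hF : Fintype.card F = (2 ^ 2) ^ 2) : ↥(Gam hF) →* Fˣ where
  toFun g := Units.mk0 (eE g.1) (eE_ne_zero hF g.2)
  map_one' := Units.ext (by
    show eE (1 : SU 3 F (2 ^ 2)) = 1
    simp [eE, mm_one])
  map_mul' g h := Units.ext (by
    show eE (g.1 * h.1) = eE g.1 * eE h.1
    exact eE_mul hF h.2)

theorem mem_suP_of_eE (hF : Fintype.card F = (2 ^ 2) ^ 2) {g : SU 3 F (2 ^ 2)} (hg : g ∈ Gam hF)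
    (hE : eE g = 1) : g ∈ suP hF := by
  have h2 := two_eq_zero_of_card hF
  obtain ⟨e1, e2, e3, e4⟩ := gam_shape hF hg
  have hdet : (mm g).det = 1 := g.1.2
  rw [Matrix.det_fin_three, e1, e2, e3, e4] at hdet
  unfold eE at hE
  obtain ⟨p, hp⟩ : ∃ p, p = mm g 0 0 := ⟨_, rfl⟩
  obtain ⟨r, hr⟩ : ∃ r, r = mm g 0 1 := ⟨_, rfl⟩
  obtain ⟨t, ht⟩ : ∃ t, t = mm g 0 2 := ⟨_, rfl⟩
  obtain ⟨u, hu⟩ : ∃ u, u = mm g 2 0 := ⟨_, rfl⟩
  obtain ⟨v, hv⟩ : ∃ v, v = mm g 2 2 := ⟨_, rfl⟩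
  rw [← hp, ← hr] at hE
  rw [← hp, ← hr, ← ht, ← hu, ← hv] at hdet
  have hv1 : v = 1 := by
    linear_combination hdet + (r ^ 2 * v + p * r * v + p * t * u - r * t * u) * h2 - v * (p + r + 1) * hE
  have h02 := herm_col g 0 2
  have h00 := herm_col g 0 0
  simp only [Fin.sum_univ_three, e2, e3, e4, ← hp, ← hr, ← ht, ← hu, ← hv, hv1] at h02 h00
  simp at h02 h00
  have huq : u = t ^ 4 := by
    linear_combination h02 - t ^ 4 * hE - t ^ 4 * h2
  have hp1 : p = 1 + r := by linear_combination hE - r * h2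
  have hp4 : p ^ 4 = 1 + r ^ 4 := by
    have := frob_add h2 2 1 r
    rw [hp1]
    simpa using this
  have hu4 : u ^ 4 = t := by
    rw [huq]
    have := pow_pow_q hF t
    simpa using this
  have hrel : r + r ^ 4 = t * t ^ 4 := by
    rw [hp4, hu4, hp1, huq] at h00
    linear_combination h00 - (t * t ^ 4 + r * r ^ 4) * h2
  refine ⟨t, r, ?_, ?_⟩
  · simpa using hrel
  · show mm g = suMat (2 ^ 2) t r
    ext i j
    fin_cases i <;> fin_cases j <;> simp [suMat]
    · rw [← hp, hp1]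
    · rw [← hr]
    · rw [← ht]
    · rw [e2, ← hr]
    · rw [e1, ← hp, hp1]
    · rw [e3, ← ht]
    · rw [← hu, huq]
    · rw [e4, ← hu, huq]
    · rw [← hv, hv1]

theorem suP_le_Gam (hF : Fintype.card F = (2 ^ 2) ^ 2) : suP hF ≤ Gam hF := by
  rintro g ⟨α, γ, h, hg⟩
  rw [Subgroup.mem_centralizer_singleton_iff]
  apply Subtype.ext
  apply Subtype.ext
  show mm g * mm (tEl hF) = mm (tEl hF) * mm g
  rw [tEl_mat, show mm g = suMat (2 ^ 2) α γ from hg]
  ext i j
  fin_cases i <;> fin_cases j <;> simp [suMat, Matrix.mul_apply, Fin.sum_univ_three]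

theorem eE_of_suP (hF : Fintype.card F = (2 ^ 2) ^ 2) {g : SU 3 F (2 ^ 2)} (hg : g ∈ suP hF) : eE g = 1 := by
  have h2 := two_eq_zero_of_card hF
  obtain ⟨α, γ, h, hg⟩ := hg
  unfold eE
  rw [show mm g = suMat (2 ^ 2) α γ from hg]
  simp [suMat]
  linear_combination γ * h2

theorem map_ker_phi (hF : Fintype.card F = (2 ^ 2) ^ 2) : (phi hF).ker.map (Gam hF).subtype = suP hF := by
  ext g
  constructor
  · rintro ⟨w, hw, rfl⟩
    apply mem_suP_of_eE hF w.2
    have := congrArg Units.val ((MonoidHom.mem_ker).1 hw)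
    exact this
  · intro hg
    refine ⟨⟨g, suP_le_Gam hF hg⟩, ?_, rfl⟩
    show (phi hF) ⟨g, suP_le_Gam hF hg⟩ = 1
    apply Units.ext
    exact eE_of_suP hF hg

theorem card_suP (hF : Fintype.card F = (2 ^ 2) ^ 2) : Nat.card ↥(suP hF) = 64 := by
  have := (suP_coords hF).card_X hF (by norm_num)
  rw [this]
  norm_num

theorem card_ker_phi (hF : Fintype.card F = (2 ^ 2) ^ 2) : Nat.card (phi hF).ker = 64 := by
  rw [← card_suP hF, ← map_ker_phi hF, Subgroup.card_map_of_injective (Gam hF).subtype_injective]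

theorem dmat_mulVec (a : F) (w : Fin 3 → F) :
    !![a, 0, 0; 0, a, 0; 0, 0, a ^ 3] *ᵥ w = ![a * w 0, a * w 1, a ^ 3 * w 2] := by
  ext i
  fin_cases i <;> simp [Matrix.mulVec, dotProduct, Fin.sum_univ_three]

/-- The torus element. -/
def dEl (hF : Fintype.card F = (2 ^ 2) ^ 2) (a : F) (ha : a ^ 5 = 1) : SU 3 F (2 ^ 2) :=
  ⟨⟨!![a, 0, 0; 0, a, 0; 0, 0, a ^ 3], by
    rw [Matrix.det_fin_three]
    simp
    linear_combination ha⟩, by
    intro u v
    show hermForm 3 F (2 ^ 2) (!![a, 0, 0; 0, a, 0; 0, 0, a ^ 3] *ᵥ u) (!![a, 0, 0; 0, a, 0; 0, 0, a ^ 3] *ᵥ v) = _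
    rw [dmat_mulVec, dmat_mulVec]
    unfold hermForm
    simp only [Fin.sum_univ_three]
    simp
    linear_combination (u 0 * v 0 ^ 4 + u 1 * v 1 ^ 4 + u 2 * v 2 ^ 4 * (a ^ 10 + a ^ 5 + 1)) * ha⟩

theorem dEl_mat (hF : Fintype.card F = (2 ^ 2) ^ 2) (a : F) (ha : a ^ 5 = 1) :
    mm (dEl hF a ha) = !![a, 0, 0; 0, a, 0; 0, 0, a ^ 3] := rfl

theorem dEl_mem (hF : Fintype.card F = (2 ^ 2) ^ 2) (a : F) (ha : a ^ 5 = 1) : dEl hF a ha ∈ Gam hF := by
  rw [Subgroup.mem_centralizer_singleton_iff]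
  apply Subtype.ext
  apply Subtype.ext
  show mm (dEl hF a ha) * mm (tEl hF) = mm (tEl hF) * mm (dEl hF a ha)
  rw [tEl_mat, dEl_mat]
  ext i j
  fin_cases i <;> fin_cases j <;> simp [Matrix.mul_apply, Fin.sum_univ_three]

theorem eE_dEl (hF : Fintype.card F = (2 ^ 2) ^ 2) (a : F) (ha : a ^ 5 = 1) : eE (dEl hF a ha) = a := by
  unfold eE
  rw [dEl_mat]
  simp

theorem dEl_conj (hF : Fintype.card F = (2 ^ 2) ^ 2) (a : F) (ha : a ^ 5 = 1) (α γ : F) :
    !![a, 0, 0; 0, a, 0; 0, 0, a ^ 3] * suMat (2 ^ 2) α γ = suMat (2 ^ 2) (a ^ 3 * α) γ * !![a, 0, 0; 0, a, 0; 0, 0, a ^ 3] := by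
  ext i j
  fin_cases i <;> fin_cases j <;> simp [suMat, Matrix.mul_apply, Fin.sum_univ_three] <;> first
    | ring1
    | linear_combination (-a * α) * ha
    | linear_combination (-a ^ 3 * α ^ 4 * (a ^ 5 + 1)) * ha

theorem exists_unit_five (hF : Fintype.card F = (2 ^ 2) ^ 2) : ∃ u : Fˣ, orderOf u = 5 := by
  classical
  haveI : Fact (Nat.Prime 5) := ⟨by norm_num⟩
  apply exists_prime_orderOf_dvd_card' 5
  rw [Nat.card_eq_fintype_card, Fintype.card_units, hF]
  norm_num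

theorem card_Gam (hF : Fintype.card F = (2 ^ 2) ^ 2) : Nat.card (Gam hF) = 320 := by
  classical
  obtain ⟨u₀, hu₀⟩ := exists_unit_five hF
  have hu5 : u₀ ^ 5 = 1 := by rw [← hu₀]; exact pow_orderOf_eq_one u₀
  have ha5 : (u₀ : F) ^ 5 = 1 := by
    have := congrArg Units.val hu5
    simpa using this
  have hrange : Nat.card (phi hF).range = 5 := by
    apply le_antisymm
    · have hle : (phi hF).range ≤ rootsOfUnity 5 F := by
        rintro _ ⟨g, rfl⟩
        rw [mem_rootsOfUnity]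
        apply Units.ext
        have := eE_norm hF g.2
        show (eE g.1) ^ 5 = 1
        rw [← this]
        ring
      calc Nat.card (phi hF).range ≤ Nat.card (rootsOfUnity 5 F) := Subgroup.card_le_of_le hle
        _ ≤ 5 := card_rootsOfUnity F 5
    · have hle : Subgroup.zpowers u₀ ≤ (phi hF).range := by
        rw [Subgroup.zpowers_le]
        refine ⟨⟨dEl hF _ ha5, dEl_mem hF _ ha5⟩, ?_⟩
        apply Units.ext
        exact eE_dEl hF _ ha5
      calc 5 = Nat.card (Subgroup.zpowers u₀) := by rw [Nat.card_zpowers, hu₀]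
        _ ≤ _ := Subgroup.card_le_of_le hle
  have h1 := Subgroup.card_mul_index (phi hF).ker
  rw [Subgroup.index_ker, hrange, card_ker_phi] at h1
  omega

theorem suP_commutator (hF : Fintype.card F = (2 ^ 2) ^ 2) :
    (commutator ↥(Gam hF)).map (Gam hF).subtype = suP hF := by
  have h2 := two_eq_zero_of_card hF
  apply le_antisymm
  · rw [← map_ker_phi hF]
    apply Subgroup.map_mono
    rw [_root_.commutator_def, Subgroup.commutator_le]
    intro g _ h _
    rw [MonoidHom.mem_ker, commutatorElement_def, map_mul, map_mul, map_mul, map_inv, map_inv, mul_comm (phi hF g)]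
    group
  · obtain ⟨K, hK⟩ : ∃ K : Subgroup (SU 3 F (2 ^ 2)), K = (commutator ↥(Gam hF)).map (Gam hF).subtype := ⟨_, rfl⟩
    rw [← hK]
    have hmem : ∀ g ∈ Gam hF, ∀ h ∈ Gam hF, g * h * g⁻¹ * h⁻¹ ∈ K := by
      intro g hg h hh
      rw [hK]
      refine ⟨⁅(⟨g, hg⟩ : ↥(Gam hF)), (⟨h, hh⟩ : ↥(Gam hF))⁆, ?_, rfl⟩
      rw [_root_.commutator_def]
      exact Subgroup.commutator_mem_commutator (Subgroup.mem_top _) (Subgroup.mem_top _)
    have hc := suP_coords hF
    obtain ⟨c₀, hc₀⟩ := exists_trace_one hF (n := 2) (by norm_num)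
    have hrel0 : ∀ t : F, (c₀ * (t * t ^ (2 ^ 2))) + (c₀ * (t * t ^ (2 ^ 2))) ^ (2 ^ 2) = t * t ^ (2 ^ 2) := by
      intro t
      rw [mul_pow, norm_fix hF]
      linear_combination (t * t ^ (2 ^ 2)) * hc₀
    have hq0 : ((2 : ℕ) ^ 2 : ℕ) ≠ 0 := by norm_num
    -- central elements
    have hcl2 : ∀ φ : F, φ ^ (2 ^ 2) = φ → ∃ k : ↥(suP hF), k.1 ∈ K ∧ suAA hF k = 0 ∧ suCC hF k = φ := by
      intro φ hφ
      obtain ⟨x₁, hx₁, -⟩ := hc.ex 1 _ (hrel0 1)
      obtain ⟨x₂, hx₂, -⟩ := hc.ex (φ * c₀) _ (hrel0 (φ * c₀))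
      refine ⟨x₁ * x₂ * x₁⁻¹ * x₂⁻¹, hmem _ (suP_le_Gam hF x₁.2) _ (suP_le_Gam hF x₂.2), ?_, ?_⟩
      · have h3 : (x₁ * x₂ * x₁⁻¹ * x₂⁻¹) * (x₂ * x₁) = x₁ * x₂ := by group
        have h4 := congrArg (suAA hF) h3
        rw [hc.aa_mul, hc.aa_mul _ x₁, hc.aa_mul x₁ x₂] at h4
        linear_combination h4
      · have h3 : (x₁ * x₂ * x₁⁻¹ * x₂⁻¹) * (x₂ * x₁) = x₁ * x₂ := by group
        have h4 := congrArg (suAA hF) h3
        rw [hc.aa_mul, hc.aa_mul _ x₁, hc.aa_mul x₁ x₂] at h4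
        have h40 : suAA hF (x₁ * x₂ * x₁⁻¹ * x₂⁻¹) = 0 := by linear_combination h4
        have h5 := congrArg (suCC hF) h3
        rw [hc.cc_mul, hc.cc_mul _ x₁, hc.cc_mul x₁ x₂, h40, hx₁, hx₂] at h5
        simp only [zero_mul, add_zero, one_pow, mul_one, one_mul] at h5
        rw [mul_pow, hφ] at h5
        linear_combination h5 + φ * hc₀ - (φ * c₀) * h2
    -- all first coordinates
    obtain ⟨u₀, hu₀⟩ := exists_unit_five hF
    have hu5 : u₀ ^ 5 = 1 := by rw [← hu₀]; exact pow_orderOf_eq_one u₀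
    obtain ⟨a, ha⟩ : ∃ a : F, a = (u₀ : F) := ⟨_, rfl⟩
    have ha5 : a ^ 5 = 1 := by
      rw [ha]
      have := congrArg Units.val hu5
      simpa using this
    have ha1 : a ≠ 1 := by
      intro h
      have : u₀ = 1 := Units.ext (by rw [← ha, h]; rfl)
      rw [this, orderOf_one] at hu₀
      omega
    have ha3 : a ^ 3 - 1 ≠ 0 := by
      intro h
      apply ha1
      have h3 : a ^ 3 = 1 := by linear_combination h
      have h4 : a ^ 2 = 1 := by linear_combination ha5 - a ^ 2 * h3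
      calc a = a * a ^ 2 := by rw [h4, mul_one]
        _ = a ^ 3 := by ring
        _ = 1 := h3
    have hcl1 : ∀ α' : F, ∃ k : ↥(suP hF), k.1 ∈ K ∧ suAA hF k = α' := by
      intro α'
      obtain ⟨α, hα⟩ : ∃ α, α = α' / (a ^ 3 - 1) := ⟨_, rfl⟩
      obtain ⟨u, hu1, hu2⟩ := hc.ex α _ (hrel0 α)
      have hrel' : (c₀ * (α * α ^ (2 ^ 2))) + (c₀ * (α * α ^ (2 ^ 2))) ^ (2 ^ 2) = (a ^ 3 * α) * (a ^ 3 * α) ^ (2 ^ 2) := by
        rw [hrel0 α, mul_pow]
        linear_combination (-α * α ^ 4 * (a ^ 10 + a ^ 5 + 1)) * ha5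
      obtain ⟨u', hu'1, hu'2⟩ := hc.ex (a ^ 3 * α) _ hrel'
      let d : SU 3 F (2 ^ 2) := dEl hF a ha5
      have hdu : d * u.1 = u'.1 * d := by
        apply Subtype.ext
        apply Subtype.ext
        show mm d * mm u.1 = mm u'.1 * mm d
        have e1 : mm u.1 = suMat (2 ^ 2) α (c₀ * (α * α ^ (2 ^ 2))) := by
          have := (suP_mat hF u).1
          rw [hu1, hu2] at this
          exact this
        have e2 : mm u'.1 = suMat (2 ^ 2) (a ^ 3 * α) (c₀ * (α * α ^ (2 ^ 2))) := by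
          have := (suP_mat hF u').1
          rw [hu'1, hu'2] at this
          exact this
        rw [e1, e2, dEl_mat, dEl_conj hF a ha5]
      refine ⟨u' * u⁻¹, ?_, ?_⟩
      · have h3 := hmem d (dEl_mem hF a ha5) u.1 (suP_le_Gam hF u.2)
        rw [hdu] at h3
        have e : u'.1 * d * d⁻¹ * u.1⁻¹ = ((u' * u⁻¹ : ↥(suP hF)) : SU 3 F (2 ^ 2)) := by
          push_cast
          group
        rwa [e] at h3
      · have h3 : (u' * u⁻¹) * u = u' := by group
        have h4 := congrArg (suAA hF) h3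
        rw [hc.aa_mul, hu1, hu'1] at h4
        have h5 : suAA hF (u' * u⁻¹) = (a ^ 3 - 1) * α := by linear_combination h4
        rw [h5, hα]
        field_simp
    -- conclusion
    intro w hw
    obtain ⟨k, hk, hka⟩ := hcl1 (suAA hF ⟨w, hw⟩)
    obtain ⟨v, hv⟩ : ∃ v, v = (⟨w, hw⟩ : ↥(suP hF)) * k⁻¹ := ⟨_, rfl⟩
    have hvk : v * k = ⟨w, hw⟩ := by rw [hv]; group
    have hva : suAA hF v = 0 := by
      have h4 := congrArg (suAA hF) hvk
      rw [hc.aa_mul, hka] at h4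
      linear_combination h4
    have hvf : suCC hF v ^ (2 ^ 2) = suCC hF v := by
      apply mem_fix_of_trace h2
      have := hc.rel v
      rw [hva] at this
      simpa [hq0] using this
    obtain ⟨k', hk', hk'a, hk'c⟩ := hcl2 _ hvf
    have hk'v : k' = v := hc.ext _ _ (by rw [hk'a, hva]) hk'c
    have hwe : w = v.1 * k.1 := congrArg Subtype.val hvk.symm
    rw [hwe]
    exact K.mul_mem (hk'v ▸ hk') hk

theorem SUCoords.center_sq {n : ℕ} {X : Type*} [Group X] {aa cc : X → F} (hF : Fintype.card F = (2 ^ n) ^ 2) (hn : 1 ≤ n)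
    (h : SUCoords (2 ^ n) F X aa cc) {z : X} (hz : z ∈ Subgroup.center X) : z * z = 1 := by
  have h2 := two_eq_zero_of_card hF
  obtain ⟨c₀, hc₀⟩ := exists_trace_one hF hn
  obtain ⟨y₀, hy₀⟩ := exists_ne_fix hF hn
  have hq0 : (2 ^ n : ℕ) ≠ 0 := by positivity
  have hcomm : ∀ y : X, y * z = z * y := fun y => (Subgroup.mem_center_iff.1 hz) y
  have hcc : ∀ y : X, aa y * aa z ^ (2 ^ n) = aa z * aa y ^ (2 ^ n) := by
    intro y
    have h1 := congrArg cc (hcomm y)
    rw [h.cc_mul, h.cc_mul] at h1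
    linear_combination h1
  have hrel0 : ∀ t : F, (c₀ * (t * t ^ (2 ^ n))) + (c₀ * (t * t ^ (2 ^ n))) ^ (2 ^ n) = t * t ^ (2 ^ n) := by
    intro t
    rw [mul_pow, norm_fix hF]
    linear_combination (t * t ^ (2 ^ n)) * hc₀
  obtain ⟨y1, hy1, -⟩ := h.ex 1 _ (hrel0 1)
  obtain ⟨y2, hy2, -⟩ := h.ex y₀ _ (hrel0 y₀)
  have h3 := hcc y1
  rw [hy1] at h3
  simp only [one_pow, mul_one, one_mul] at h3
  have h4 := hcc y2
  rw [hy2, h3] at h4
  have h5 : aa z * (y₀ ^ (2 ^ n) - y₀) = 0 := by linear_combination -h4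
  have haz : aa z = 0 := by
    rcases mul_eq_zero.1 h5 with h6 | h6
    · exact h6
    · exact absurd (sub_eq_zero.1 h6) hy₀
  apply h.ext
  · rw [h.aa_mul, haz, h.aa_one, add_zero]
  · rw [h.cc_mul, haz, h.cc_one]
    simp [hq0]
    linear_combination cc z * h2

theorem hyp_Gam (hF : Fintype.card F = (2 ^ 2) ^ 2) :
    Nat.card (commutator ↥(Gam hF)) = 64 ∧ IsKleinFour (Subgroup.center (commutator ↥(Gam hF))) := by
  classical
  let e1 := (commutator ↥(Gam hF)).equivMapOfInjective (Gam hF).subtype (Gam hF).subtype_injective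
  let e2 := MulEquiv.subgroupCongr (suP_commutator hF)
  let e : commutator ↥(Gam hF) ≃* ↥(suP hF) := e1.trans e2
  have hc := (suP_coords hF).congr e.symm
  refine ⟨?_, ?_⟩
  · rw [Nat.card_congr e.toEquiv]
    exact card_suP hF
  · have hcard := hc.card_center hF (by norm_num)
    refine ⟨by rw [hcard]; norm_num, ?_⟩
    haveI : Fact (Nat.Prime 2) := ⟨Nat.prime_two⟩
    have hd : Monoid.exponent (Subgroup.center (commutator ↥(Gam hF))) ∣ 2 := by
      apply Monoid.exponent_dvd_of_forall_pow_eq_one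
      intro g
      apply Subtype.ext
      have := SUCoords.center_sq hF (by norm_num) hc g.2
      have h3 : g ^ 2 = g * g := pow_two g
      rw [h3]
      exact this
    rcases (Nat.dvd_prime Nat.prime_two).1 hd with h | h
    · exfalso
      rw [Monoid.exp_eq_one_iff] at h
      have h3 := Nat.card_eq_one_iff_unique.2 ⟨h, ⟨1⟩⟩
      rw [hcard] at h3
      norm_num at h3
    · exact h

/-- The isomorphism with the projective group. -/
theorem exists_psu_equiv (hF : Fintype.card F = (2 ^ 2) ^ 2) :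
    Nonempty (SU 3 F (2 ^ 2) ≃* PSU 3 F (2 ^ 2)) := by
  have hZ : Nat.card (Subgroup.center (SU 3 F (2 ^ 2))) = Nat.gcd 3 ((2 ^ 2) + 1) :=
    Cfsg.Agent.Lib.Classical.card_center_su (F := F) (q := 2 ^ 2) (n := 3) hF (by norm_num)
  have hZ1 : Nat.card (Subgroup.center (SU 3 F (2 ^ 2))) = 1 := by
    rw [hZ]; norm_num
  have hbot : Subgroup.center (SU 3 F (2 ^ 2)) = ⊥ := (Subgroup.eq_bot_iff_card _).2 hZ1
  let π : SU 3 F (2 ^ 2) →* PSU 3 F (2 ^ 2) := QuotientGroup.mk' _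
  have hπ : Function.Bijective π := by
    constructor
    · rw [injective_iff_map_eq_one]
      intro x hx
      have hxZ : x ∈ Subgroup.center (SU 3 F (2 ^ 2)) := (QuotientGroup.eq_one_iff _).1 hx
      rw [hbot] at hxZ
      exact hxZ
    · exact QuotientGroup.mk'_surjective _
  exact ⟨MulEquiv.ofBijective π hπ⟩

/-- **A group of order `320`** with derived subgroup of order `64` having Klein-four centre is isomorphic to
the centraliser of an involution of `PSU₃(4)`. -/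
theorem exists_iso_centralizer_psu (hF : Fintype.card F = (2 ^ 2) ^ 2) {G : Type*} [Group G] [Finite G]
    (hG : Nat.card G = 320) (hD : Nat.card (commutator G) = 64) (hZ : IsKleinFour (Subgroup.center (commutator G))) :
    ∃ t : PSU 3 F (2 ^ 2), orderOf t = 2 ∧
      Nonempty (G ≃* Subgroup.centralizer ({t} : Set (PSU 3 F (2 ^ 2)))) := by
  classical
  obtain ⟨e⟩ := exists_psu_equiv hF
  have ht1 : tEl hF ≠ 1 := by
    intro h
    have := congrArg (fun g : SU 3 F (2 ^ 2) => mm g 0 1) h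
    rw [tEl_mat, mm_one] at this
    simp at this
  have ht2 : tEl hF ^ 2 = 1 := by
    rw [pow_two (tEl hF)]
    apply Subtype.ext
    apply Subtype.ext
    show mm (tEl hF) * mm (tEl hF) = 1
    rw [tEl_mat]
    ext i j
    fin_cases i <;> fin_cases j <;> simp [Matrix.mul_apply, Fin.sum_univ_three]
  haveI : Fact (Nat.Prime 2) := ⟨Nat.prime_two⟩
  refine ⟨e (tEl hF), ?_, ?_⟩
  · rw [MulEquiv.orderOf_eq]
    exact orderOf_eq_prime ht2 ht1
  · obtain ⟨x, y, h1, g1⟩ := exists_rel_of_hyp hG hD hZ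
    obtain ⟨h64, hkl⟩ := hyp_Gam hF
    obtain ⟨x', y', h1', g1'⟩ := exists_rel_of_hyp (card_Gam hF) h64 hkl
    obtain ⟨f⟩ := iso_of_rel hG (card_Gam hF) h1 h1' g1 g1'
    have hmap : (Gam hF).map e.toMonoidHom = Subgroup.centralizer ({e (tEl hF)} : Set (PSU 3 F (2 ^ 2))) := by
      ext w
      constructor
      · rintro ⟨g, hg, rfl⟩
        have hg' : g * tEl hF = tEl hF * g := Subgroup.mem_centralizer_singleton_iff.1 hg
        refine Subgroup.mem_centralizer_singleton_iff.2 ?_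
        show e g * e (tEl hF) = e (tEl hF) * e g
        rw [← map_mul, ← map_mul, hg']
      · intro hw
        have hw' := Subgroup.mem_centralizer_singleton_iff.1 hw
        refine ⟨e.symm w, Subgroup.mem_centralizer_singleton_iff.2 ?_, by simp⟩
        apply e.injective
        rw [map_mul, map_mul, e.apply_symm_apply, hw']
    exact ⟨f.trans ((e.subgroupMap (Gam hF)).trans (MulEquiv.subgroupCongr hmap))⟩

end

end Cfsg.Agent.Lib.ZT
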