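import Cfsg.Agent.Lib.ZT.G320b
import Cfsg.Agent.Lib.Fusion.Hig10

/-!
# Automorphisms of `3`-power order of `2`-groups of small rank
-/

set_option autoImplicit false
set_option linter.unusedVariables false
set_option linter.unusedSectionVars false

namespace Cfsg.Agent.Lib.ZT

universe u

section quad

variable {B : Type*} [Group B] [Finite B]

/-- A group which is a central extension of an anisotropic quadratic map. -/
theorem quad_card_bound (V : Subgroup B) [V.Normal] (hVc : ∀ v ∈ V, ∀ g : B, g * v = v * g)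
    (hV2 : ∀ v ∈ V, v ^ 2 = 1) (hsq : ∀ x : B, x ^ 2 ∈ V) (hcm : ∀ x y : B, cm x y ∈ V)
    (hani : ∀ x : B, x ^ 2 = 1 → x ∈ V) (hcard : Nat.card V ≤ 4) : Nat.card (B ⧸ V) ≤ 16 := by
  classical
  haveI : Fact (Nat.Prime 2) := ⟨Nat.prime_two⟩
  let U := B ⧸ V
  have hUc : ∀ a b : U, a * b = b * a := by
    intro a b
    induction a using QuotientGroup.induction_on with
    | H x =>
    induction b using QuotientGroup.induction_on with
    | H y =>
    have h1 : (((x : U) * (y : U)) : U) = ((x * y : B) : U) := rfl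
    have h2 : (((y : U) * (x : U)) : U) = ((y * x : B) : U) := rfl
    rw [h1, h2, QuotientGroup.eq]
    have e : (x * y)⁻¹ * (y * x) = cm y⁻¹ x⁻¹ := by unfold cm; group
    rw [e]
    exact hcm _ _
  letI cU : CommGroup U := { (inferInstance : Group U) with mul_comm := hUc }
  have hU2 : ∀ a : U, a * a = 1 := by
    intro a
    induction a using QuotientGroup.induction_on with
    | H x =>
    have h1 : (((x : U) * (x : U)) : U) = ((x ^ 2 : B) : U) := by rw [pow_two]; rfl
    rw [h1]
    exact (QuotientGroup.eq_one_iff _).2 (hsq x)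
  let A := Additive U
  have hA2 : ∀ x : A, (2 : ℕ) • x = 0 := by
    intro x
    rw [two_nsmul]
    exact hU2 (Additive.toMul x)
  letI mA : Module (ZMod 2) A := AddCommGroup.zmodModule hA2
  haveI : Finite A := inferInstanceAs (Finite U)
  haveI : Module.Finite (ZMod 2) A := Module.Finite.of_finite
  letI cV : CommGroup V :=
    { (inferInstance : Group V) with
      mul_comm := fun a b => Subtype.ext (hVc a.1 a.2 b.1) |>.symm }
  let C := Additive V
  have hC2 : ∀ x : C, (2 : ℕ) • x = 0 := by
    intro x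
    rw [two_nsmul]
    apply Additive.toMul.injective
    apply Subtype.ext
    have := hV2 _ (Additive.toMul x).2
    rw [pow_two] at this
    exact this
  letI mC : Module (ZMod 2) C := AddCommGroup.zmodModule hC2
  haveI : Finite C := inferInstanceAs (Finite V)
  haveI : Module.Finite (ZMod 2) C := Module.Finite.of_finite
  let o : A → B := fun u => (Additive.toMul u : U).out
  have ho : ∀ u : A, ((o u : B) : U) = Additive.toMul u := fun u => QuotientGroup.out_eq' _
  have hoz : ∀ (x : B) (u : A), ((x : B) : U) = Additive.toMul u → ∃ z ∈ V, o u = x * z := by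
    intro x u hx
    have h1 : ((x : B) : U) = ((o u : B) : U) := by rw [ho, hx]
    rw [QuotientGroup.eq] at h1
    exact ⟨_, h1, by group⟩
  have hcen : ∀ z ∈ V, ∀ g : B, g * z = z * g := hVc
  have hsqz : ∀ x z : B, z ∈ V → (x * z) ^ 2 = x ^ 2 := by
    intro x z hz
    have hz2 := hV2 z hz
    rw [pow_two, pow_two] at *
    calc x * z * (x * z) = x * (z * x) * z := by group
      _ = x * (x * z) * z := by rw [hcen z hz x]
      _ = x * x * (z * z) := by group
      _ = x * x := by rw [hz2, mul_one]
  have hcc : ∀ x y : B, ∀ g : B, g * cm x y = cm x y * g := fun x y g => hcen _ (hcm x y) g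
  let Q : A → C := fun u => Additive.ofMul (⟨o u ^ 2, hsq _⟩ : V)
  let β : A → A → C := fun u v => Additive.ofMul (⟨cm (o v) (o u), hcm _ _⟩ : V)
  have hmulo : ∀ u v : A, ∃ z ∈ V, o (u + v) = o u * o v * z := by
    intro u v
    apply hoz
    rw [QuotientGroup.mk_mul, ho, ho]
    rfl
  have hbd := Cfsg.Agent.Lib.Fusion.Hig.quad_dim_bound (A := A) (B := C) Q β
    (by
      intro u v
      obtain ⟨z, hz, hz2⟩ := hmulo u v
      apply Additive.toMul.injective
      apply Subtype.ext
      show o (u + v) ^ 2 = o u ^ 2 * o v ^ 2 * cm (o v) (o u)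
      rw [hz2, hsqz _ _ hz, sq_mul_of_central (hcc _ _)])
    (by
      intro u v w
      obtain ⟨z, hz, hz2⟩ := hmulo u v
      apply Additive.toMul.injective
      apply Subtype.ext
      show cm (o w) (o (u + v)) = cm (o w) (o u) * cm (o w) (o v)
      rw [hz2, cm_central_right (fun g => hcen z hz g), cm_mul_right (hcc _ _)])
    (by
      intro u v w
      obtain ⟨z, hz, hz2⟩ := hmulo v w
      apply Additive.toMul.injective
      apply Subtype.ext
      show cm (o (v + w)) (o u) = cm (o v) (o u) * cm (o w) (o u)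
      rw [hz2, cm_central_left (fun g => hcen z hz g), cm_mul_left (hcc _ _)])
    (by
      intro u hu
      have h1 : o u ^ 2 = 1 := congrArg Subtype.val (Additive.toMul.injective hu)
      have h2 : o u ∈ V := hani _ h1
      have h3 : Additive.toMul u = 1 := by
        rw [← ho, QuotientGroup.eq_one_iff]
        exact h2
      exact h3)
  set m := Module.finrank (ZMod 2) A with hm
  set n := Module.finrank (ZMod 2) C with hn
  have hcardU : Nat.card U = 2 ^ m := by
    haveI : Fintype A := Fintype.ofFinite A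
    have h1 := Module.card_eq_pow_finrank (K := ZMod 2) (V := A)
    rw [ZMod.card] at h1
    rw [← h1, ← Nat.card_eq_fintype_card]
    rfl
  have hcardV : Nat.card V = 2 ^ n := by
    haveI : Fintype C := Fintype.ofFinite C
    have h1 := Module.card_eq_pow_finrank (K := ZMod 2) (V := C)
    rw [ZMod.card] at h1
    rw [← h1, ← Nat.card_eq_fintype_card]
    rfl
  have hn2 : n ≤ 2 := by
    by_contra hh
    push Not at hh
    have : 2 ^ 3 ≤ 2 ^ n := Nat.pow_le_pow_right (by norm_num) hh
    rw [hcardV] at hcard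
    omega
  have hm4 : m ≤ 4 := by omega
  have : 2 ^ m ≤ 2 ^ 4 := Nat.pow_le_pow_right (by norm_num) hm4
  show Nat.card U ≤ 16
  rw [hcardU]
  simpa using this

/-- A permutation of `3`-power order, with a single fixed point, whose cube has no other
fixed point. -/
theorem nine_dvd_of_perm {U : Type*} [Finite U] (f : Equiv.Perm U) (b : ℕ) (hb : f ^ (3 ^ b) = 1) (a : U)
    (ha : f a = a) (h3 : ∀ u, (f ^ 3) u = u → u = a) : 9 ∣ Nat.card U - 1 := by
  classical
  haveI := Fintype.ofFinite U
  have hsupp : f.support = Finset.univ.erase a := by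
    ext u
    simp only [Equiv.Perm.mem_support, Finset.mem_erase, Finset.mem_univ, and_true]
    constructor
    · rintro h rfl
      exact h ha
    · intro h hu
      apply h
      apply h3
      exact Equiv.Perm.pow_apply_eq_self_of_apply_eq_self hu 3
  have hs : f.cycleType.sum = Nat.card U - 1 := by
    rw [Equiv.Perm.sum_cycleType, hsupp, Finset.card_erase_of_mem (Finset.mem_univ _),
      Finset.card_univ, Nat.card_eq_fintype_card]
  rw [← hs]
  apply Multiset.dvd_sum
  intro n hn
  have hd : n ∣ 3 ^ b := (Equiv.Perm.dvd_of_mem_cycleType hn).trans (orderOf_dvd_of_pow_eq_one hb)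
  obtain ⟨j, hj, rfl⟩ := (Nat.dvd_prime_pow Nat.prime_three).1 hd
  have h2 := Equiv.Perm.two_le_of_mem_cycleType hn
  rcases Nat.lt_or_ge j 2 with hlt | hge
  · exfalso
    rw [Equiv.Perm.mem_cycleType_iff] at hn
    obtain ⟨c, τ, hf, hdis, hc, hcard⟩ := hn
    have hc3 : c ^ 3 = 1 := by
      have h5 : orderOf c = 3 ^ j := by rw [hc.orderOf, hcard]
      have hj1 : j = 0 ∨ j = 1 := by omega
      rcases hj1 with rfl | rfl
      · simp at h2
      · rw [pow_one] at h5
        rw [← h5]
        exact pow_orderOf_eq_one c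
    obtain ⟨x, hx⟩ := hc.nonempty_support
    have hxc : c x ≠ x := Equiv.Perm.mem_support.1 hx
    have hτ : τ x = x := by
      rcases hdis x with h | h
      · exact absurd h hxc
      · exact h
    have hcomm : Commute c τ := hdis.commute
    have hf3 : (f ^ 3) x = x := by
      rw [hf, hcomm.mul_pow, hc3, one_mul]
      exact Equiv.Perm.pow_apply_eq_self_of_apply_eq_self hτ 3
    have hxa := h3 x hf3
    have : f x = x := by rw [hxa]; exact ha
    rw [hf, Equiv.Perm.mul_apply, hτ] at this
    exact hxc this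
  · have : (3 : ℕ) ^ 2 ∣ 3 ^ j := pow_dvd_pow 3 hge
    simpa using this

end quad

section core

variable {B : Type*} [Group B] [Finite B]

theorem iterate_mul_fix (α : B →* B) {x : B} (hv : α (x⁻¹ * α x) = x⁻¹ * α x) (k : ℕ) :
    α^[k] x = x * (x⁻¹ * α x) ^ k := by
  induction k with
  | zero => simp
  | succ k ih =>
    rw [Function.iterate_succ_apply', ih, map_mul, map_pow, hv, pow_succ', ← mul_assoc x, mul_inv_cancel_left]

theorem eq_one_of_pow_three (hB : IsPGroup 2 B) {g : B} {b : ℕ} (h : g ^ (3 ^ b) = 1) : g = 1 := by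
  obtain ⟨m, hm⟩ := IsPGroup.iff_orderOf.1 hB g
  have h1 : orderOf g ∣ 3 ^ b := orderOf_dvd_of_pow_eq_one h
  have h2 : Nat.Coprime (orderOf g) (3 ^ b) := by
    rw [hm]
    exact Nat.Coprime.pow _ _ (by norm_num)
  have h3 : orderOf g = 1 := Nat.Coprime.eq_one_of_dvd h2 h1
  exact orderOf_eq_one_iff.1 h3

/-- The norm argument: an element fixed by `α` lies in any normal `V` with elementary abelian
quotient, if `B` is generated by the elements `x⁻¹ α(x)`. -/
theorem fix_mem_of_norm (α : B →* B) (n : ℕ) (hnodd : Odd n) (hαn : ∀ x, α^[n] x = x)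
    (hE : Subgroup.closure (Set.range (fun x : B => x⁻¹ * α x)) = ⊤) (V : Subgroup B) [V.Normal]
    (hsq : ∀ x : B, x ^ 2 ∈ V) (hcm : ∀ x y : B, cm x y ∈ V) {x : B} (hx : α x = x) : x ∈ V := by
  classical
  let U := B ⧸ V
  have hUc : ∀ a b : U, a * b = b * a := by
    intro a b
    induction a using QuotientGroup.induction_on with
    | H x =>
    induction b using QuotientGroup.induction_on with
    | H y =>
    have h1 : (((x : U) * (y : U)) : U) = ((x * y : B) : U) := rfl
    have h2 : (((y : U) * (x : U)) : U) = ((y * x : B) : U) := rfl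
    rw [h1, h2, QuotientGroup.eq]
    have e : (x * y)⁻¹ * (y * x) = cm y⁻¹ x⁻¹ := by unfold cm; group
    rw [e]
    exact hcm _ _
  letI cU : CommGroup U := { (inferInstance : Group U) with mul_comm := hUc }
  let π : B →* U :=
    { toFun := fun x => (x : U)
      map_one' := rfl
      map_mul' := fun _ _ => rfl }
  let S : Subgroup B :=
    { carrier := {g | ∏ i ∈ Finset.range n, π (α^[i] g) = 1}
      mul_mem' := by
        intro a b ha hb
        show ∏ i ∈ Finset.range n, π (α^[i] (a * b)) = 1
        simp only [iterate_map_mul, map_mul, Finset.prod_mul_distrib]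
        rw [show ∏ i ∈ Finset.range n, π (α^[i] a) = 1 from ha,
          show ∏ i ∈ Finset.range n, π (α^[i] b) = 1 from hb, one_mul]
      one_mem' := by
        show ∏ i ∈ Finset.range n, π (α^[i] 1) = 1
        simp [iterate_map_one]
      inv_mem' := by
        intro a ha
        show ∏ i ∈ Finset.range n, π (α^[i] a⁻¹) = 1
        simp only [iterate_map_inv, map_inv, Finset.prod_inv_distrib]
        rw [show ∏ i ∈ Finset.range n, π (α^[i] a) = 1 from ha, inv_one] }
  have hS : S = ⊤ := by
    rw [eq_top_iff, ← hE, Subgroup.closure_le]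
    rintro _ ⟨y, rfl⟩
    show ∏ i ∈ Finset.range n, π (α^[i] (y⁻¹ * α y)) = 1
    have e : ∀ i, π (α^[i] (y⁻¹ * α y)) = π (α^[i + 1] y) / π (α^[i] y) := by
      intro i
      rw [iterate_map_mul, iterate_map_inv, map_mul, map_inv, Function.iterate_succ_apply, div_eq_mul_inv,
        mul_comm]
    simp only [e]
    rw [Finset.prod_range_div (fun i => π (α^[i] y)) n]
    simp only [hαn, Function.iterate_zero, id_eq]
    simp
  have hxS : x ∈ S := by rw [hS]; trivial
  have h1 : ∏ i ∈ Finset.range n, π (α^[i] x) = 1 := hxS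
  have hfix : ∀ i, α^[i] x = x := fun i => Function.iterate_fixed hx i
  simp only [hfix, Finset.prod_const, Finset.card_range] at h1
  have h2 : π x ^ 2 = 1 := by
    rw [← map_pow]
    exact (QuotientGroup.eq_one_iff _).2 (hsq x)
  obtain ⟨k, rfl⟩ := hnodd
  rw [pow_succ, pow_mul, h2, one_pow, one_mul] at h1
  exact (QuotientGroup.eq_one_iff _).1 h1

/-- The core of the induction: a minimal counterexample does not exist. -/
theorem core_step (hB : IsPGroup 2 B) (ψ : B →* B) (b : ℕ) (hb : ∀ x, ψ^[3 ^ b] x = x)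
    (H1 : ∀ x : B, x ^ 2 = 1 → ∀ g : B, g * x = x * g)
    (H2 : ∀ x : B, x ^ 2 = 1 → ψ (ψ (ψ x)) = x)
    (H3 : ∀ V : Subgroup B, (∀ x ∈ V, x ^ 2 = 1) → Nat.card V ≤ 4)
    (ih : ∀ C : Subgroup B, (∀ x ∈ C, ψ x ∈ C) → C ≠ ⊤ → ∀ x ∈ C, ψ (ψ (ψ x)) = x) :
    ∀ x, ψ (ψ (ψ x)) = x := by
  classical
  by_contra hne
  push Not at hne
  obtain ⟨x₀, hx₀⟩ := hne
  let α : B →* B := ψ.comp (ψ.comp ψ)
  have hα : ∀ x, α x = ψ (ψ (ψ x)) := fun _ => rfl
  set n := 3 ^ b with hn
  have hαn : ∀ x, α^[n] x = x := by
    have e : (α : B → B) = ψ^[3] := by funext x; rfl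
    intro x
    rw [e, ← Function.iterate_mul, mul_comm, Function.iterate_mul]
    have hid : (ψ^[n]) = id := funext hb
    rw [hid]
    simp
  have hnodd : Odd n := Odd.pow (by decide)
  let c : B → B := fun x => x⁻¹ * α x
  let E : Subgroup B := Subgroup.closure (Set.range c)
  have hEinv : ∀ x ∈ E, ψ x ∈ E := by
    have : E ≤ E.comap ψ := by
      rw [Subgroup.closure_le]
      rintro _ ⟨x, rfl⟩
      apply Subgroup.subset_closure
      refine ⟨ψ x, ?_⟩
      show (ψ x)⁻¹ * α (ψ x) = ψ (x⁻¹ * α x)
      rw [map_mul, map_inv]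
      rfl
    exact fun x hx => this hx
  have hEtop : E = ⊤ := by
    by_contra hE
    have hfix := ih E hEinv hE
    apply hx₀
    have hcfix : α (c x₀) = c x₀ := hfix _ (Subgroup.subset_closure ⟨x₀, rfl⟩)
    have h1 := iterate_mul_fix α hcfix n
    rw [hαn] at h1
    have h2 : (x₀⁻¹ * α x₀) ^ n = 1 := by
      have := h1
      exact (mul_eq_left.1 this.symm)
    have h3 := eq_one_of_pow_three hB h2
    have h4 : α x₀ = x₀ := by
      have := inv_mul_eq_one.1 h3
      exact this.symm
    exact h4
  let D : Subgroup B := Subgroup.closure (Set.range (fun x : B => x ^ 2))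
  have hsqD : ∀ x : B, x ^ 2 ∈ D := fun x => Subgroup.subset_closure ⟨x, rfl⟩
  have hDinv : ∀ x ∈ D, ψ x ∈ D := by
    have : D ≤ D.comap ψ := by
      rw [Subgroup.closure_le]
      rintro _ ⟨x, rfl⟩
      show ψ (x ^ 2) ∈ D
      rw [map_pow]
      exact hsqD _
    exact fun x hx => this hx
  have hDne : D ≠ ⊤ := by
    haveI : Fact (Nat.Prime 2) := ⟨Nat.prime_two⟩
    have hnt : x₀ ≠ 1 := by
      rintro rfl
      exact hx₀ (by simp)
    obtain ⟨k, hk⟩ := IsPGroup.iff_card.1 hB
    have hk0 : k ≠ 0 := by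
      rintro rfl
      rw [pow_zero] at hk
      haveI : Subsingleton B := (Nat.card_eq_one_iff_unique.1 hk).1
      exact hnt (Subsingleton.elim _ _)
    obtain ⟨j, rfl⟩ := Nat.exists_eq_succ_of_ne_zero hk0
    obtain ⟨M, hM⟩ := Sylow.exists_subgroup_card_pow_prime (G := B) 2 (n := j) (by
      rw [hk, Nat.succ_eq_add_one, pow_succ]
      exact Dvd.intro _ rfl)
    have hidx : M.index = 2 := by
      have h1 := M.card_mul_index
      rw [hM, hk, Nat.succ_eq_add_one, pow_succ] at h1
      exact Nat.eq_of_mul_eq_mul_left (by positivity) h1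
    have hDM : D ≤ M := by
      rw [Subgroup.closure_le]
      rintro _ ⟨x, rfl⟩
      exact Subgroup.sq_mem_of_index_two hidx x
    intro hh
    rw [hh, top_le_iff] at hDM
    rw [hDM] at hidx
    simp at hidx
  have hDfix := ih D hDinv hDne
  have hDconj : ∀ g : B, ∀ d ∈ D, g * d * g⁻¹ ∈ D := by
    intro g
    have : D ≤ D.comap (MulAut.conj g).toMonoidHom := by
      rw [Subgroup.closure_le]
      rintro _ ⟨x, rfl⟩
      show g * x ^ 2 * g⁻¹ ∈ D
      have e : g * x ^ 2 * g⁻¹ = (g * x * g⁻¹) ^ 2 := by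
        simp only [pow_two]; group
      rw [e]
      exact hsqD _
    exact fun d hd => this hd
  have hDcen : ∀ d ∈ D, ∀ g : B, g * d = d * g := by
    intro d hd g
    have hg : g ∈ E := by rw [hEtop]; trivial
    have hle : E ≤ Subgroup.centralizer ({d} : Set B) := by
      rw [Subgroup.closure_le]
      rintro _ ⟨x, rfl⟩
      rw [SetLike.mem_coe, Subgroup.mem_centralizer_singleton_iff]
      have h1 : α (x * d * x⁻¹) = x * d * x⁻¹ := hDfix _ (hDconj x d hd)
      have h2 : α d = d := hDfix d hd
      rw [map_mul, map_mul, map_inv, h2] at h1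
      show x⁻¹ * α x * d = d * (x⁻¹ * α x)
      calc x⁻¹ * α x * d = x⁻¹ * (α x * d * (α x)⁻¹) * α x := by group
        _ = x⁻¹ * (x * d * x⁻¹) * α x := by rw [h1]
        _ = d * (x⁻¹ * α x) := by group
    have := hle hg
    rw [Subgroup.mem_centralizer_singleton_iff] at this
    exact this
  have hcmD : ∀ x y : B, cm x y ∈ D := by
    intro x y
    have e : cm x y = (x * y) ^ 2 * (y⁻¹ * x⁻¹ * y) ^ 2 * (y⁻¹) ^ 2 := by
      unfold cm
      simp only [pow_two]
      group
    rw [e]
    exact D.mul_mem (D.mul_mem (hsqD _) (hsqD _)) (hsqD _)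
  have hcc : ∀ x y g : B, g * cm x y = cm x y * g := fun x y g => hDcen _ (hcmD x y) g
  have hcm2 : ∀ x y : B, (cm x y) ^ 2 = 1 := by
    intro x y
    have h1 : cm (x * x) y = cm x y * cm x y := cm_mul_left (hcc _ _)
    have h2 : cm (x * x) y = 1 := by
      have := hDcen (x ^ 2) (hsqD x) y
      rw [pow_two] at this
      unfold cm
      rw [mul_inv_eq_one, mul_inv_eq_iff_eq_mul, this]
    rw [pow_two, ← h1, h2]
  let V : Subgroup B :=
    { carrier := {x | x ^ 2 = 1}
      mul_mem' := by
        intro a b' ha hb'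
        have ha' : a ^ 2 = 1 := ha
        have hb'' : b' ^ 2 = 1 := hb'
        show (a * b') ^ 2 = 1
        rw [pow_two] at *
        calc a * b' * (a * b') = a * (b' * a) * b' := by group
          _ = a * (a * b') * b' := by
            have := H1 a (by rw [pow_two]; exact ha') b'
            rw [this]
          _ = (a * a) * (b' * b') := by group
          _ = 1 := by rw [ha', hb'', one_mul]
      one_mem' := by
        show (1 : B) ^ 2 = 1
        simp
      inv_mem' := by
        intro a ha
        have ha' : a ^ 2 = 1 := ha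
        show a⁻¹ ^ 2 = 1
        rw [inv_pow, ha', inv_one] }
  have hVmem : ∀ x, x ∈ V ↔ x ^ 2 = 1 := fun x => Iff.rfl
  haveI hVn : V.Normal := by
    refine ⟨fun v hv g => ?_⟩
    have := H1 v hv g
    rw [this]
    simpa using hv
  have hc2 : ∀ x : B, ((x⁻¹ * α x) ^ 2) ^ 2 = 1 := by
    intro x
    have h1 : α (x ^ 2) = x ^ 2 := hDfix _ (hsqD x)
    rw [map_pow] at h1
    have h2 : α x = x * (x⁻¹ * α x) := by group
    rw [h2, sq_mul_of_central (hcc _ _)] at h1
    set u := x⁻¹ * α x with hu
    have h3 : u ^ 2 * cm u x = 1 := by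
      have := h1
      rw [mul_assoc] at this
      exact mul_eq_left.1 this
    have h4 : u ^ 2 = (cm u x)⁻¹ := eq_inv_of_mul_eq_one_left h3
    rw [h4, inv_pow, hcm2, inv_one]
  have hall : ∀ g : B, (g ^ 2) ^ 2 = 1 := by
    let S : Subgroup B :=
      { carrier := {g | (g ^ 2) ^ 2 = 1}
        mul_mem' := by
          intro a b' ha hb'
          have ha' : (a ^ 2) ^ 2 = 1 := ha
          have hb'' : (b' ^ 2) ^ 2 = 1 := hb'
          show ((a * b') ^ 2) ^ 2 = 1
          rw [sq_mul_of_central (hcc _ _)]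
          have hu : Commute (a ^ 2) (b' ^ 2) := hDcen _ (hsqD b') _
          have hw : Commute (a ^ 2 * b' ^ 2) (cm b' a) := hcc _ _ _
          rw [hw.mul_pow, hu.mul_pow, ha', hb'', hcm2, one_mul, one_mul]
        one_mem' := by
          show ((1 : B) ^ 2) ^ 2 = 1
          simp
        inv_mem' := by
          intro a ha
          have ha' : (a ^ 2) ^ 2 = 1 := ha
          show (a⁻¹ ^ 2) ^ 2 = 1
          rw [inv_pow, inv_pow, ha', inv_one] }
    have hES : E ≤ S := by
      rw [Subgroup.closure_le]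
      rintro _ ⟨x, rfl⟩
      exact hc2 x
    intro g
    have : g ∈ E := by rw [hEtop]; trivial
    exact hES this
  have hU16 : Nat.card (B ⧸ V) ≤ 16 := quad_card_bound V (fun v hv g => H1 v hv g) (fun v hv => hv)
    hall hcm2 (fun x hx => hx) (H3 V (fun x hx => hx))
  have hfixV : ∀ x, α x = x → x ∈ V := fun x hx =>
    fix_mem_of_norm α n hnodd hαn hEtop V hall hcm2 hx
  have hfpf : ∀ x, x⁻¹ * α x ∈ V → x ∈ V := by
    intro x hv
    have hv' : (x⁻¹ * α x) ^ 2 = 1 := hv
    have hαv : α (x⁻¹ * α x) = x⁻¹ * α x := H2 _ hv'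
    have h1 := iterate_mul_fix α hαv n
    rw [hαn] at h1
    have h2 : (x⁻¹ * α x) ^ n = 1 := mul_eq_left.1 h1.symm
    have h3 := eq_one_of_pow_three hB h2
    exact hfixV x (inv_mul_eq_one.1 h3).symm
  have hψV : V ≤ V.comap ψ := by
    intro v hv
    show (ψ v) ^ 2 = 1
    rw [← map_pow, show v ^ 2 = 1 from hv, map_one]
  let ψb : B ⧸ V →* B ⧸ V := QuotientGroup.map V V ψ hψV
  have hψb : ∀ x : B, ψb (x : B ⧸ V) = ((ψ x : B) : B ⧸ V) := fun x => rfl
  have hit : ∀ (k : ℕ) (x : B), ψb^[k] (x : B ⧸ V) = ((ψ^[k] x : B) : B ⧸ V) := by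
    intro k x
    induction k with
    | zero => rfl
    | succ k ih' =>
      rw [Function.iterate_succ_apply', ih', hψb, ← Function.iterate_succ_apply' ψ]
  have hid : ∀ u : B ⧸ V, ψb^[n] u = u := by
    intro u
    induction u using QuotientGroup.induction_on with
    | H x => rw [hit, hb]
  have hnpos : 0 < n := by positivity
  have hinj : Function.Injective ψb := by
    have hl : Function.LeftInverse (ψb^[n - 1]) ψb := by
      intro u
      rw [← Function.iterate_succ_apply, Nat.succ_eq_add_one, Nat.sub_add_cancel hnpos, hid]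
    exact hl.injective
  have hbij : Function.Bijective ψb := Finite.injective_iff_bijective.1 hinj
  let f : Equiv.Perm (B ⧸ V) := Equiv.ofBijective ψb hbij
  have hfc : ∀ (k : ℕ) (u : B ⧸ V), (f ^ k) u = ψb^[k] u := by
    intro k u
    rw [← Equiv.Perm.iterate_eq_pow]
    rfl
  have h9 := nine_dvd_of_perm f b (by
      ext u
      rw [hfc, Equiv.Perm.one_apply]
      exact hid u) 1 (map_one ψb) (by
      intro u hu
      rw [hfc] at hu
      induction u using QuotientGroup.induction_on with
      | H x =>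
      rw [hit] at hu
      have h1 : ((α x : B) : B ⧸ V) = (x : B ⧸ V) := hu
      rw [eq_comm, QuotientGroup.eq] at h1
      exact (QuotientGroup.eq_one_iff _).2 (hfpf x h1))
  obtain ⟨d, hd⟩ := IsPGroup.iff_card.1 (hB.to_quotient V)
  have hd4 : d ≤ 4 := by
    by_contra hh
    push Not at hh
    have : 2 ^ 5 ≤ 2 ^ d := Nat.pow_le_pow_right (by norm_num) hh
    rw [hd] at hU16
    omega
  have hd0 : d = 0 := by
    rw [hd] at h9
    interval_cases d <;> first | rfl | (exfalso; revert h9; decide)
  rw [hd0, pow_zero] at hd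
  haveI : Subsingleton (B ⧸ V) := (Nat.card_eq_one_iff_unique.1 hd).1
  have hx0V : x₀ ∈ V := (QuotientGroup.eq_one_iff _).1 (Subsingleton.elim _ _)
  exact hx₀ (H2 x₀ hx0V)

end core

/-- An automorphism of `3`-power order of a `2`-group all of whose involutions are central, with
at most four involutions and identity, whose cube fixes all involutions, has order dividing `3`. -/
theorem cube_trivial : ∀ (n : ℕ) (B : Type u) [Group B] [Finite B], Nat.card B = n → IsPGroup 2 B →
    ∀ (ψ : B →* B) (b : ℕ), (∀ x, ψ^[3 ^ b] x = x) →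
    (∀ x : B, x ^ 2 = 1 → ∀ g : B, g * x = x * g) →
    (∀ x : B, x ^ 2 = 1 → ψ (ψ (ψ x)) = x) →
    (∀ V : Subgroup B, (∀ x ∈ V, x ^ 2 = 1) → Nat.card V ≤ 4) →
    ∀ x, ψ (ψ (ψ x)) = x := by
  intro n
  induction n using Nat.strong_induction_on with
  | _ n IH =>
  intro B _ _ hn hB ψ b hb H1 H2 H3
  apply core_step hB ψ b hb H1 H2 H3
  intro C hC hne x hx
  let ψC : C →* C := (ψ.comp C.subtype).codRestrict C (fun y => hC y.1 y.2)
  have hψC : ∀ y : C, ((ψC y : C) : B) = ψ y.1 := fun _ => rfl
  have hit : ∀ (k : ℕ) (y : C), ((ψC^[k] y : C) : B) = ψ^[k] y.1 := by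
    intro k y
    induction k with
    | zero => rfl
    | succ k ih =>
      rw [Function.iterate_succ_apply', hψC, ih, ← Function.iterate_succ_apply' ψ k y.1]
  have hlt : Nat.card C < n := by
    rw [← hn]
    refine lt_of_le_of_ne (Subgroup.card_le_card_group C) ?_
    intro h
    exact hne (Subgroup.eq_top_of_card_eq C h)
  have := IH (Nat.card C) hlt C rfl (hB.to_subgroup C) ψC b
    (by
      intro y
      apply Subtype.ext
      rw [hit, hb])
    (by
      intro y hy g
      apply Subtype.ext
      exact H1 y.1 (congrArg Subtype.val hy) g.1)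
    (by
      intro y hy
      apply Subtype.ext
      exact H2 y.1 (congrArg Subtype.val hy))
    (by
      intro V hV
      have h1 := H3 (V.map C.subtype) (by
        rintro _ ⟨y, hy, rfl⟩
        exact congrArg Subtype.val (hV y hy))
      have h2 : Nat.card (V.map C.subtype) = Nat.card V :=
        Nat.card_congr (V.equivMapOfInjective C.subtype C.subtype_injective).toEquiv.symm
      omega)
    ⟨x, hx⟩
  exact congrArg Subtype.val this

end Cfsg.Agent.Lib.ZT
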