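import Cfsg.Agent.Lib.ZT.G320b

/-!
# A characterisation of a group of order `64`
-/

set_option autoImplicit false
set_option linter.unusedVariables false
set_option linter.unusedSectionVars false

namespace Cfsg.Agent.Lib.ZT

open Subgroup

section rel

variable {W : Type*} [Group W]

/-- The relations. -/
structure Rel64 (z w y0 y1 y2 y3 : W) : Prop where
  zc : ∀ g : W, g * z = z * g
  wc : ∀ g : W, g * w = w * g
  z2 : z ^ 2 = 1
  w2 : w ^ 2 = 1
  s0 : y0 ^ 2 = z
  s1 : y1 ^ 2 = w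
  s2 : y2 ^ 2 = z
  s3 : y3 ^ 2 = w
  c01 : cm y0 y1 = 1
  c23 : cm y2 y3 = 1
  c02 : cm y0 y2 = w
  c03 : cm y0 y3 = z
  c12 : cm y1 y2 = z
  c13 : cm y1 y3 = z * w

theorem card_closure_rel64 [Finite W] {z w y0 y1 y2 y3 : W} (h : Rel64 z w y0 y1 y2 y3) :
    Nat.card (closure ({y0, y1, y2, y3} : Set W)) ≤ 64 := by
  classical
  let B0 : Subgroup W := ⊥ ⊔ zpowers z
  let B : Subgroup W := B0 ⊔ zpowers w
  have hzB : z ∈ B := mem_sup_left (mem_sup_right (mem_zpowers _))
  have hwB : w ∈ B := mem_sup_right (mem_zpowers _)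
  have hBc : ∀ a ∈ B, ∀ g : W, g * a = a * g := by
    intro a ha g
    have hle : B ≤ centralizer ({g} : Set W) := by
      refine sup_le (sup_le bot_le ?_) ?_
      · rw [zpowers_le, mem_centralizer_singleton_iff]
        exact (h.zc g).symm
      · rw [zpowers_le, mem_centralizer_singleton_iff]
        exact (h.wc g).symm
    have := hle ha
    rw [mem_centralizer_singleton_iff] at this
    exact this.symm
  have hcent : ∀ (H : Subgroup W) (g : W), (∀ g' : W, g' * g = g * g') → g ∈ normalizer (H : Set W) := by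
    intro H g hg
    apply mem_normalizer_of_conj
    intro s hs
    have : g * s * g⁻¹ = s := by
      rw [← hg s]; group
    rw [this]; exact hs
  have hB0card : Nat.card B0 ≤ 2 := by
    have := card_sup_zpowers_le ⊥ z (hcent _ _ h.zc) 2 (by norm_num) (by rw [h.z2]; exact one_mem _)
    calc Nat.card B0 ≤ 2 * Nat.card (⊥ : Subgroup W) := this
      _ = 2 := by simp
  have hBcard : Nat.card B ≤ 4 := by
    have := card_sup_zpowers_le B0 w (hcent _ _ h.wc) 2 (by norm_num) (by rw [h.w2]; exact one_mem _)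
    calc Nat.card B ≤ 2 * Nat.card B0 := this
      _ ≤ 4 := by omega
  have hzT : ∀ g : W, B ≤ cmSub B hBc g := by
    intro g a ha
    show cm g a ∈ B
    have : cm g a = 1 := by
      unfold cm
      rw [hBc a ha g]
      group
    rw [this]
    exact B.one_mem
  have hzw : z * w ∈ B := B.mul_mem hzB hwB
  let A0 : Subgroup W := B ⊔ zpowers y0
  let A1 : Subgroup W := A0 ⊔ zpowers y1
  let A2 : Subgroup W := A1 ⊔ zpowers y2
  let A3 : Subgroup W := A2 ⊔ zpowers y3
  have hBA0 : B ≤ A0 := le_sup_left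
  have hA01 : A0 ≤ A1 := le_sup_left
  have hA12 : A1 ≤ A2 := le_sup_left
  have hA23 : A2 ≤ A3 := le_sup_left
  have hy0 : y0 ∈ A0 := mem_sup_right (mem_zpowers _)
  have hy1 : y1 ∈ A1 := mem_sup_right (mem_zpowers _)
  have hy2 : y2 ∈ A2 := mem_sup_right (mem_zpowers _)
  have hy3 : y3 ∈ A3 := mem_sup_right (mem_zpowers _)
  have hA0card : Nat.card A0 ≤ 8 := by
    have := card_sup_zpowers_le B y0 (norm_of_cm B B hBc le_rfl y0 (hzT y0)) 2 (by norm_num)
      (by rw [h.s0]; exact hzB)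
    calc Nat.card A0 ≤ 2 * Nat.card B := this
      _ ≤ 8 := by omega
  have hA1card : Nat.card A1 ≤ 16 := by
    have hT : A0 ≤ cmSub B hBc y1 := by
      refine sup_le (hzT y1) ?_
      rw [zpowers_le]
      show cm y1 y0 ∈ B
      rw [cm_swap, h.c01, inv_one]
      exact B.one_mem
    have := card_sup_zpowers_le A0 y1 (norm_of_cm B A0 hBc hBA0 y1 hT) 2 (by norm_num)
      (by rw [h.s1]; exact hBA0 hwB)
    calc Nat.card A1 ≤ 2 * Nat.card A0 := this
      _ ≤ 16 := by omega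
  have hA2card : Nat.card A2 ≤ 32 := by
    have hT : A1 ≤ cmSub B hBc y2 := by
      refine sup_le (sup_le (hzT y2) ?_) ?_
      · rw [zpowers_le]
        show cm y2 y0 ∈ B
        rw [cm_swap, h.c02]
        exact B.inv_mem hwB
      · rw [zpowers_le]
        show cm y2 y1 ∈ B
        rw [cm_swap, h.c12]
        exact B.inv_mem hzB
    have := card_sup_zpowers_le A1 y2 (norm_of_cm B A1 hBc (hBA0.trans hA01) y2 hT) 2 (by norm_num)
      (by rw [h.s2]; exact hA01 (hBA0 hzB))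
    calc Nat.card A2 ≤ 2 * Nat.card A1 := this
      _ ≤ 32 := by omega
  have hA3card : Nat.card A3 ≤ 64 := by
    have hT : A2 ≤ cmSub B hBc y3 := by
      refine sup_le (sup_le (sup_le (hzT y3) ?_) ?_) ?_
      · rw [zpowers_le]
        show cm y3 y0 ∈ B
        rw [cm_swap, h.c03]
        exact B.inv_mem hzB
      · rw [zpowers_le]
        show cm y3 y1 ∈ B
        rw [cm_swap, h.c13]
        exact B.inv_mem hzw
      · rw [zpowers_le]
        show cm y3 y2 ∈ B
        rw [cm_swap, h.c23, inv_one]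
        exact B.one_mem
    have := card_sup_zpowers_le A2 y3 (norm_of_cm B A2 hBc (hBA0.trans (hA01.trans hA12)) y3 hT) 2 (by norm_num)
      (by rw [h.s3]; exact hA12 (hA01 (hBA0 hwB)))
    calc Nat.card A3 ≤ 2 * Nat.card A2 := this
      _ ≤ 64 := by omega
  have hcl : closure ({y0, y1, y2, y3} : Set W) ≤ A3 := by
    rw [closure_le]
    rintro a (rfl | rfl | rfl | rfl)
    · exact hA23 (hA12 (hA01 hy0))
    · exact hA23 (hA12 hy1)
    · exact hA23 hy2
    · exact hy3
  exact (card_le_of_le hcl).trans hA3card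

theorem Rel64.prod' {G₁ G₂ : Type*} [Group G₁] [Group G₂] {z w y0 y1 y2 y3 : G₁}
    {z' w' y0' y1' y2' y3' : G₂} (h : Rel64 z w y0 y1 y2 y3) (h' : Rel64 z' w' y0' y1' y2' y3') :
    Rel64 ((z, z') : G₁ × G₂) (w, w') (y0, y0') (y1, y1') (y2, y2') (y3, y3') where
  zc := by
    rintro ⟨a, b⟩
    apply Prod.ext
    · exact h.zc a
    · exact h'.zc b
  wc := by
    rintro ⟨a, b⟩
    apply Prod.ext
    · exact h.wc a
    · exact h'.wc b
  z2 := by apply Prod.ext <;> simp [h.z2, h'.z2]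
  w2 := by apply Prod.ext <;> simp [h.w2, h'.w2]
  s0 := by apply Prod.ext <;> simp [h.s0, h'.s0]
  s1 := by apply Prod.ext <;> simp [h.s1, h'.s1]
  s2 := by apply Prod.ext <;> simp [h.s2, h'.s2]
  s3 := by apply Prod.ext <;> simp [h.s3, h'.s3]
  c01 := by rw [cm_prod]; apply Prod.ext <;> simp [h.c01, h'.c01]
  c23 := by rw [cm_prod]; apply Prod.ext <;> simp [h.c23, h'.c23]
  c02 := by rw [cm_prod]; apply Prod.ext <;> simp [h.c02, h'.c02]
  c03 := by rw [cm_prod]; apply Prod.ext <;> simp [h.c03, h'.c03]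
  c12 := by rw [cm_prod]; apply Prod.ext <;> simp [h.c12, h'.c12]
  c13 := by rw [cm_prod]; apply Prod.ext <;> simp [h.c13, h'.c13]

/-- Two groups of order `64` with generators satisfying the relations are isomorphic. -/
theorem iso_of_rel64 {G₁ G₂ : Type*} [Group G₁] [Group G₂] [Finite G₁] [Finite G₂]
    (hc1 : Nat.card G₁ = 64) (hc2 : Nat.card G₂ = 64) {z w y0 y1 y2 y3 : G₁}
    {z' w' y0' y1' y2' y3' : G₂} (h1 : Rel64 z w y0 y1 y2 y3) (h2 : Rel64 z' w' y0' y1' y2' y3')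
    (g1 : closure ({y0, y1, y2, y3} : Set G₁) = ⊤) (g2 : closure ({y0', y1', y2', y3'} : Set G₂) = ⊤) :
    Nonempty (G₁ ≃* G₂) := by
  classical
  let D : Subgroup (G₁ × G₂) := closure ({(y0, y0'), (y1, y1'), (y2, y2'), (y3, y3')} : Set (G₁ × G₂))
  have hD : Nat.card D ≤ 64 := card_closure_rel64 (h1.prod' h2)
  have hs1 : Function.Surjective ((MonoidHom.fst G₁ G₂).comp D.subtype) := by
    rw [← MonoidHom.range_eq_top, MonoidHom.range_comp, range_subtype, MonoidHom.map_closure]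
    rw [eq_top_iff, ← g1, closure_le]
    rintro a (rfl | rfl | rfl | rfl)
    · exact subset_closure ⟨(a, y0'), Or.inl rfl, rfl⟩
    · exact subset_closure ⟨(a, y1'), Or.inr (Or.inl rfl), rfl⟩
    · exact subset_closure ⟨(a, y2'), Or.inr (Or.inr (Or.inl rfl)), rfl⟩
    · exact subset_closure ⟨(a, y3'), Or.inr (Or.inr (Or.inr rfl)), rfl⟩
  have hs2 : Function.Surjective ((MonoidHom.snd G₁ G₂).comp D.subtype) := by
    rw [← MonoidHom.range_eq_top, MonoidHom.range_comp, range_subtype, MonoidHom.map_closure]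
    rw [eq_top_iff, ← g2, closure_le]
    rintro a (rfl | rfl | rfl | rfl)
    · exact subset_closure ⟨(y0, a), Or.inl rfl, rfl⟩
    · exact subset_closure ⟨(y1, a), Or.inr (Or.inl rfl), rfl⟩
    · exact subset_closure ⟨(y2, a), Or.inr (Or.inr (Or.inl rfl)), rfl⟩
    · exact subset_closure ⟨(y3, a), Or.inr (Or.inr (Or.inr rfl)), rfl⟩
  have hb1 : Function.Bijective ((MonoidHom.fst G₁ G₂).comp D.subtype) :=
    hs1.bijective_of_nat_card_le (by rw [hc1]; exact hD)
  have hb2 : Function.Bijective ((MonoidHom.snd G₁ G₂).comp D.subtype) :=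
    hs2.bijective_of_nat_card_le (by rw [hc2]; exact hD)
  exact ⟨(MulEquiv.ofBijective _ hb1).symm.trans (MulEquiv.ofBijective _ hb2)⟩

end rel

section spec

variable {X : Type*} [Group X]

/-- The abstract properties of the group of order `64`. -/
structure Spec64 (τ : X →* X) : Prop where
  ccard : Nat.card (center X) = 4
  inv_cen : ∀ x : X, x ^ 2 = 1 → x ∈ center X
  cen_inv : ∀ z ∈ center X, z ^ 2 = 1
  sq : ∀ x : X, x ^ 2 ∈ center X
  cmm : ∀ x y : X, cm x y ∈ center X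
  t3 : ∀ x, τ (τ (τ x)) = x
  fp : ∀ z ∈ center X, τ z = z → z = 1

variable {τ : X →* X}

namespace Spec64

theorem cc (S : Spec64 τ) {z : X} (hz : z ∈ center X) (g : X) : g * z = z * g :=
  mem_center_iff.1 hz g

theorem tc (S : Spec64 τ) {z : X} (hz : z ∈ center X) : τ z ∈ center X := by
  rw [mem_center_iff]
  intro g
  calc g * τ z = τ (τ (τ g)) * τ z := by rw [S.t3]
    _ = τ (τ (τ g) * z) := by rw [map_mul]
    _ = τ (z * τ (τ g)) := by rw [S.cc hz]
    _ = τ z * τ (τ (τ g)) := by rw [map_mul]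
    _ = τ z * g := by rw [S.t3]

theorem inv_self (S : Spec64 τ) {z : X} (hz : z ∈ center X) : z⁻¹ = z := by
  apply inv_eq_of_mul_eq_one_left
  rw [← pow_two]
  exact S.cen_inv z hz

theorem norm_cen (S : Spec64 τ) {z : X} (hz : z ∈ center X) : z * τ z * τ (τ z) = 1 := by
  apply S.fp _ (mul_mem (mul_mem hz (S.tc hz)) (S.tc (S.tc hz)))
  rw [map_mul, map_mul, S.t3]
  calc τ z * τ (τ z) * z = z * (τ z * τ (τ z)) := S.cc hz _
    _ = _ := by rw [mul_assoc]

theorem fpf (S : Spec64 τ) {x : X} (h : x⁻¹ * τ x ∈ center X) : x ∈ center X := by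
  have hx : τ x = x * (x⁻¹ * τ x) := by group
  have h1 : τ (x ^ 2) = x ^ 2 := by
    have hc : Commute x (x⁻¹ * τ x) := S.cc h x
    rw [map_pow, hx, hc.mul_pow, S.cen_inv _ h, mul_one]
  exact S.inv_cen x (S.fp _ (S.sq x) h1)

theorem norm1 (S : Spec64 τ) (y : X) : y * τ y * τ (τ y) = 1 := by
  have ht : τ (y * (τ y * τ (τ y))) = τ y * τ (τ y) * y := by
    rw [map_mul, map_mul, S.t3, mul_assoc]
  have hN : (y * (τ y * τ (τ y)))⁻¹ * τ (y * (τ y * τ (τ y))) = cm (τ y * τ (τ y))⁻¹ y⁻¹ := by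
    rw [ht]
    unfold cm
    group
  have hNc : y * (τ y * τ (τ y)) ∈ center X := S.fpf (by rw [hN]; exact S.cmm _ _)
  rw [mul_assoc]
  apply S.fp _ hNc
  rw [ht]
  have h1 := S.cc hNc y
  rw [mul_assoc y] at h1
  exact (mul_left_cancel h1).symm

theorem cm_one_iff (a b : X) : cm a b = 1 ↔ a * b = b * a := by
  unfold cm
  rw [mul_inv_eq_one, mul_inv_eq_iff_eq_mul]

theorem comm1 (S : Spec64 τ) (y : X) : cm (τ y) y = 1 := by
  have hc : ∀ a b g : X, g * cm a b = cm a b * g := fun a b g => S.cc (S.cmm a b) g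
  have ha := S.sq y
  have h1 : τ (τ y) = (y * τ y)⁻¹ := eq_inv_of_mul_eq_one_right (S.norm1 y)
  have h2 : τ (τ (y ^ 2)) = (τ (τ y)) ^ 2 := by rw [map_pow, map_pow]
  have h3 : (τ (τ y)) ^ 2 = ((y * τ y) ^ 2)⁻¹ := by rw [h1, inv_pow]
  have h4 : ((y * τ y) ^ 2)⁻¹ = (y * τ y) ^ 2 := S.inv_self (S.sq _)
  have h5 : (y * τ y) ^ 2 = y ^ 2 * (τ y) ^ 2 * cm (τ y) y := sq_mul_of_central (hc _ _)
  have h6 : (τ y) ^ 2 = τ (y ^ 2) := by rw [map_pow]
  have h7 := S.norm_cen ha
  rw [h2, h3, h4, h5, h6] at h7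
  have hb : y ^ 2 * τ (y ^ 2) ∈ center X := mul_mem ha (S.tc ha)
  have h8 := S.cen_inv _ hb
  rw [pow_two] at h8
  rw [← mul_assoc, h8, one_mul] at h7
  exact h7

theorem solve_lin (S : Spec64 τ) {A E C : X} (hA : A ∈ center X) (hE : E ∈ center X) (hC : C ∈ center X)
    (h1 : A * E * C = 1) (h4 : A * τ C * τ (τ E) = 1) : E = τ (τ A) ∧ C = τ A := by
  have e1 : τ (τ E) = E * τ E := by
    have := eq_inv_of_mul_eq_one_right (S.norm_cen hE)
    rwa [S.inv_self (mul_mem hE (S.tc hE))] at this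
  have e2 : τ (τ C) = C * τ C := by
    have := eq_inv_of_mul_eq_one_right (S.norm_cen hC)
    rwa [S.inv_self (mul_mem hC (S.tc hC))] at this
  have e3 : A = E * C := by
    rw [mul_assoc] at h1
    have := eq_inv_of_mul_eq_one_left h1
    rwa [S.inv_self (mul_mem hE hC)] at this
  have e4 : A = τ C * (E * τ E) := by
    rw [mul_assoc] at h4
    have := eq_inv_of_mul_eq_one_left h4
    rwa [S.inv_self (mul_mem (S.tc hC) (S.tc (S.tc hE))), e1] at this
  have e5 : C = τ C * τ E := by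
    have h5 : E * C = E * (τ C * τ E) := by
      rw [← e3, e4, ← mul_assoc, ← mul_assoc, S.cc hE (τ C)]
    exact mul_left_cancel h5
  have hτC2 : τ C * τ C = 1 := by
    rw [← pow_two]
    exact S.cen_inv _ (S.tc hC)
  have e6 : τ (τ C) = τ E := by
    rw [e2]
    nth_rewrite 1 [e5]
    rw [S.cc (S.tc hE) (τ C), mul_assoc, hτC2, mul_one]
  have e7 : C = τ (τ E) := by
    have := congrArg τ e6
    rwa [S.t3] at this
  have e8 : E = τ C := by
    rw [e7, S.t3]
  have e9 : A = τ (τ C) := by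
    rw [e3, e2, e8, S.cc hC (τ C)]
  constructor
  · rw [e9, S.t3]
    exact e8
  · rw [e9, S.t3]

theorem hom_cm (a b : X) : τ (cm a b) = cm (τ a) (τ b) := by
  unfold cm
  simp only [map_mul, map_inv]

theorem cm_one_right' (a : X) : cm a 1 = 1 := by unfold cm; group

theorem cm_one_left' (a : X) : cm 1 a = 1 := by unfold cm; group

theorem ec (S : Spec64 τ) (y₁ y₂ : X) :
    cm y₁ (τ y₂) = τ (τ (cm y₁ y₂)) ∧ cm y₁ (τ (τ y₂)) = τ (cm y₁ y₂) := by
  have hc : ∀ a b g : X, g * cm a b = cm a b * g := fun a b g => S.cc (S.cmm a b) g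
  apply S.solve_lin (S.cmm _ _) (S.cmm _ _) (S.cmm _ _)
  · have h : cm y₁ (y₂ * τ y₂ * τ (τ y₂)) = 1 := by
      rw [S.norm1]
      exact cm_one_right' y₁
    rw [cm_mul_right (hc _ _), cm_mul_right (hc _ _)] at h
    exact h
  · have e6 : τ (cm y₁ (τ (τ y₂))) = cm (τ y₁) y₂ := by rw [hom_cm, S.t3]
    have e7 : τ (τ (cm y₁ (τ y₂))) = cm (τ (τ y₁)) y₂ := by rw [hom_cm, hom_cm, S.t3]
    rw [e6, e7]
    have h : cm (y₁ * τ y₁ * τ (τ y₁)) y₂ = 1 := by
      rw [S.norm1]
      exact cm_one_left' y₂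
    rw [cm_mul_left (hc _ _), cm_mul_left (hc _ _)] at h
    exact h

theorem rel_of_data (S : Spec64 τ) {y₁ y₂ z : X} (h1 : y₁ ^ 2 = z) (h2 : y₂ ^ 2 = z)
    (hc : cm y₁ y₂ = τ z) : Rel64 z (τ z) y₁ (τ y₁) y₂ (τ y₂) := by
  have hz : z ∈ center X := h1 ▸ S.sq y₁
  have hE := S.ec y₁ y₂
  refine ⟨S.cc hz, S.cc (S.tc hz), S.cen_inv z hz, S.cen_inv _ (S.tc hz), h1, ?_, h2, ?_, ?_, ?_, hc, ?_, ?_, ?_⟩
  · rw [← map_pow, h1]
  · rw [← map_pow, h2]
  · have := S.comm1 y₁
    rw [cm_swap, inv_eq_one] at this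
    exact this
  · have := S.comm1 y₂
    rw [cm_swap, inv_eq_one] at this
    exact this
  · rw [hE.1, hc, S.t3]
  · have e6 : cm (τ y₁) y₂ = τ (cm y₁ (τ (τ y₂))) := by rw [hom_cm, S.t3]
    rw [e6, hE.2, hc, S.t3]
  · rw [← hom_cm, hc]
    have := eq_inv_of_mul_eq_one_right (S.norm_cen hz)
    rwa [S.inv_self (mul_mem hz (S.tc hz))] at this

variable [Finite X]

theorem four_of_card (V : Subgroup X) (h : Nat.card V = 4) {a b c d x : X} (ha : a ∈ V) (hb : b ∈ V)
    (hc : c ∈ V) (hd : d ∈ V) (hab : a ≠ b) (hac : a ≠ c) (had : a ≠ d) (hbc : b ≠ c) (hbd : b ≠ d)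
    (hcd : c ≠ d) (hx : x ∈ V) : x = a ∨ x = b ∨ x = c ∨ x = d := by
  classical
  by_contra hn
  push Not at hn
  obtain ⟨h1, h2, h3, h4⟩ := hn
  let T : Finset X := {x, a, b, c, d}
  have hT : T.card = 5 := by
    simp only [T]
    rw [Finset.card_insert_of_notMem (by simp [h1, h2, h3, h4]),
      Finset.card_insert_of_notMem (by simp [hab, hac, had]),
      Finset.card_insert_of_notMem (by simp [hbc, hbd]),
      Finset.card_insert_of_notMem (by simp [hcd]), Finset.card_singleton]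
  have hsub : (T : Set X) ⊆ (V : Set X) := by
    intro y hy
    simp only [T, Finset.coe_insert, Finset.coe_singleton, Set.mem_insert_iff, Set.mem_singleton_iff] at hy
    rcases hy with rfl | rfl | rfl | rfl | rfl <;> assumption
  have h5 := Set.ncard_le_ncard hsub (Set.toFinite _)
  rw [Set.ncard_coe_finset, hT] at h5
  have h6 : (V : Set X).ncard = Nat.card V := (Nat.card_coe_set_eq _).symm
  omega

theorem four (S : Spec64 τ) {z v : X} (hz : z ∈ center X) (hz1 : z ≠ 1) (hv : v ∈ center X) :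
    v = 1 ∨ v = z ∨ v = τ z ∨ v = τ (τ z) := by
  have h1 : τ z ≠ 1 := by
    intro h
    apply hz1
    have := congrArg τ (congrArg τ h)
    rwa [S.t3, map_one, map_one] at this
  have h2 : τ (τ z) ≠ 1 := by
    intro h
    apply hz1
    have := congrArg τ h
    rwa [S.t3, map_one] at this
  have h3 : z ≠ τ z := fun h => hz1 (S.fp z hz h.symm)
  have h4 : z ≠ τ (τ z) := by
    intro h
    apply h3
    have := congrArg τ h
    rwa [S.t3, eq_comm] at this
  have h5 : τ z ≠ τ (τ z) := by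
    intro h
    apply h3
    have := congrArg τ (congrArg τ h)
    rw [S.t3] at this
    exact this
  exact four_of_card (center X) S.ccard (one_mem _) hz (S.tc hz) (S.tc (S.tc hz)) hz1.symm h1.symm h2.symm
    h3 h4 h5 hv

theorem normal_of_le (S : Spec64 τ) {H : Subgroup X} (hH : center X ≤ H) : H.Normal := by
  refine ⟨fun h hh g => ?_⟩
  have e : g * h * g⁻¹ = cm g h * h := by unfold cm; group
  rw [e]
  exact H.mul_mem (hH (S.cmm _ _)) hh

theorem mem_sup_sq (H : Subgroup X) [H.Normal] {g x : X} (hg2 : g ^ 2 ∈ H) (hx : x ∈ H ⊔ zpowers g) :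
    x ∈ H ∨ x * g⁻¹ ∈ H := by
  rw [← SetLike.mem_coe, Subgroup.normal_mul, Set.mem_mul] at hx
  obtain ⟨h, hh, k, hk, rfl⟩ := hx
  obtain ⟨n, rfl⟩ := mem_zpowers_iff.1 hk
  rcases Int.even_or_odd' n with ⟨m, rfl | rfl⟩
  · left
    rw [zpow_mul]
    exact H.mul_mem hh (H.zpow_mem (by exact_mod_cast hg2) m)
  · right
    have e : h * g ^ (2 * m + 1) * g⁻¹ = h * (g ^ 2) ^ m := by
      rw [zpow_add, zpow_mul, zpow_one]
      norm_cast
      group
    rw [e]
    exact H.mul_mem hh (H.zpow_mem hg2 m)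

theorem card_double {H H' : Subgroup X} (hle : H ≤ H') {x : X} (hx : x ∈ H') (hn : x ∉ H) :
    2 * Nat.card H ≤ Nat.card H' := by
  obtain ⟨k, hk⟩ := card_dvd_of_le hle
  have hpos : 0 < Nat.card H := Nat.card_pos
  have hpos' : 0 < Nat.card H' := Nat.card_pos
  have hk0 : k ≠ 0 := by
    rintro rfl
    omega
  have hk1 : k ≠ 1 := by
    rintro rfl
    rw [mul_one] at hk
    have := eq_of_le_of_card_ge hle (by omega)
    rw [this] at hn
    exact hn hx
  have hk2 : 2 ≤ k := by omega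
  rw [hk, mul_comm]
  exact Nat.mul_le_mul_left _ hk2

theorem n1 (S : Spec64 τ) {y₁ : X} (h1 : y₁ ∉ center X) : τ y₁ ∉ center X ⊔ zpowers y₁ := by
  intro h
  rcases mem_sup_sq (center X) (S.sq y₁) h with h3 | h3
  · apply h1
    have := S.tc (S.tc h3)
    rwa [S.t3] at this
  · apply h1
    apply S.fpf
    have e : y₁⁻¹ * τ y₁ = y₁⁻¹ * (τ y₁ * y₁⁻¹) * y₁ := by group
    rw [e, S.cc h3 y₁⁻¹]
    simpa using h3

/-- There is no such nonabelian group of order `16`. -/
theorem no_card16 (S : Spec64 τ) (hcard : Nat.card X = 16) : False := by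
  have hne : center X ≠ ⊤ := by
    intro h
    have := S.ccard
    rw [h, card_top, hcard] at this
    omega
  obtain ⟨y₁, hy₁⟩ : ∃ y₁, y₁ ∉ center X := by
    by_contra hh
    push Not at hh
    exact hne (eq_top_iff.2 fun x _ => hh x)
  let L₁ : Subgroup X := center X ⊔ zpowers y₁
  let L₂ : Subgroup X := L₁ ⊔ zpowers (τ y₁)
  have h01 : center X ≤ L₁ := le_sup_left
  have h12 : L₁ ≤ L₂ := le_sup_left
  have c1 : 2 * Nat.card (center X) ≤ Nat.card L₁ := card_double h01 (mem_sup_right (mem_zpowers _)) hy₁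
  have c2 : 2 * Nat.card L₁ ≤ Nat.card L₂ := card_double h12 (mem_sup_right (mem_zpowers _)) (S.n1 hy₁)
  have c5 := S.ccard
  have c7 : Nat.card L₂ ≤ Nat.card X := card_le_card_group _
  have htop : L₂ = ⊤ := eq_top_of_card_eq _ (by omega)
  have hle : L₂ ≤ centralizer ({y₁} : Set X) := by
    refine sup_le (sup_le ?_ ?_) ?_
    · intro v hv
      rw [mem_centralizer_singleton_iff]
      exact (S.cc hv y₁).symm
    · rw [zpowers_le, mem_centralizer_singleton_iff]
    · rw [zpowers_le, mem_centralizer_singleton_iff]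
      have := S.comm1 y₁
      rw [cm_one_iff] at this
      exact this
  apply hy₁
  rw [mem_center_iff]
  intro g
  have hg : g ∈ L₂ := by rw [htop]; trivial
  have := hle hg
  rw [mem_centralizer_singleton_iff] at this
  exact this

theorem gen (S : Spec64 τ) (hcard : Nat.card X = 64) {y₁ y₂ : X} (h1 : y₁ ∉ center X)
    (h2 : y₂ ∉ center X ⊔ zpowers y₁ ⊔ zpowers (τ y₁)) :
    closure ({y₁, τ y₁, y₂, τ y₂} : Set X) = ⊤ := by
  let L₁ : Subgroup X := center X ⊔ zpowers y₁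
  let L₂ : Subgroup X := L₁ ⊔ zpowers (τ y₁)
  let L₃ : Subgroup X := L₂ ⊔ zpowers y₂
  let L₄ : Subgroup X := L₃ ⊔ zpowers (τ y₂)
  have h01 : center X ≤ L₁ := le_sup_left
  have h12 : L₁ ≤ L₂ := le_sup_left
  have h23 : L₂ ≤ L₃ := le_sup_left
  have h34 : L₃ ≤ L₄ := le_sup_left
  haveI : L₁.Normal := S.normal_of_le h01
  haveI : L₂.Normal := S.normal_of_le (h01.trans h12)
  haveI : L₃.Normal := S.normal_of_le (h01.trans (h12.trans h23))
  have ht2 : ∀ x ∈ L₂, τ x ∈ L₂ := by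
    have : L₂ ≤ L₂.comap τ := by
      refine sup_le (sup_le ?_ ?_) ?_
      · intro v hv
        exact h12 (h01 (S.tc hv))
      · rw [zpowers_le]
        exact mem_sup_right (mem_zpowers _)
      · rw [zpowers_le]
        show τ (τ y₁) ∈ L₂
        rw [eq_inv_of_mul_eq_one_right (S.norm1 y₁)]
        exact L₂.inv_mem (L₂.mul_mem (h12 (mem_sup_right (mem_zpowers _))) (mem_sup_right (mem_zpowers _)))
    exact fun x hx => this hx
  have n1 : τ y₁ ∉ L₁ := S.n1 h1
  have n3 : τ y₂ ∉ L₃ := by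
    intro h
    rcases mem_sup_sq L₂ (h12 (h01 (S.sq y₂))) h with h3 | h3
    · apply h2
      have := ht2 _ (ht2 _ h3)
      rwa [S.t3] at this
    · apply h2
      have h4 := ht2 _ h3
      rw [map_mul, map_inv, eq_inv_of_mul_eq_one_right (S.norm1 y₂)] at h4
      have hcomm : y₂ * τ y₂ = τ y₂ * y₂ := by
        have := S.comm1 y₂
        rw [cm_one_iff] at this
        exact this.symm
      have h5 : y₂⁻¹ = (y₂ * τ y₂)⁻¹ * (τ y₂)⁻¹ * (τ y₂) ^ 2 := by
        rw [hcomm, pow_two]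
        group
      have h6 : y₂⁻¹ ∈ L₂ := by
        rw [h5]
        exact L₂.mul_mem h4 (h12 (h01 (S.sq _)))
      simpa using h6
  have c1 : 2 * Nat.card (center X) ≤ Nat.card L₁ := card_double h01 (mem_sup_right (mem_zpowers _)) h1
  have c2 : 2 * Nat.card L₁ ≤ Nat.card L₂ := card_double h12 (mem_sup_right (mem_zpowers _)) n1
  have c3 : 2 * Nat.card L₂ ≤ Nat.card L₃ := card_double h23 (mem_sup_right (mem_zpowers _)) h2
  have c4 : 2 * Nat.card L₃ ≤ Nat.card L₄ := card_double h34 (mem_sup_right (mem_zpowers _)) n3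
  have c5 := S.ccard
  have c6 := hcard
  have c7 : Nat.card L₄ ≤ Nat.card X := card_le_card_group _
  have htop : L₄ = ⊤ := eq_top_of_card_eq _ (by omega)
  rw [eq_top_iff, ← htop]
  set K := closure ({y₁, τ y₁, y₂, τ y₂} : Set X) with hK
  have m1 : y₁ ∈ K := subset_closure (by simp)
  have m2 : τ y₁ ∈ K := subset_closure (by simp)
  have m3 : y₂ ∈ K := subset_closure (by simp)
  have m4 : τ y₂ ∈ K := subset_closure (by simp)
  have hz1 : y₁ ^ 2 ≠ 1 := fun h => h1 (S.inv_cen _ h)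
  have hVK : center X ≤ K := by
    intro v hv
    have hz := S.sq y₁
    have e1 : τ (y₁ ^ 2) ∈ K := by
      rw [map_pow]
      exact K.pow_mem m2 2
    have e2 : y₁ ^ 2 ∈ K := K.pow_mem m1 2
    rcases S.four hz hz1 hv with rfl | rfl | rfl | rfl
    · exact K.one_mem
    · exact e2
    · exact e1
    · have := eq_inv_of_mul_eq_one_right (S.norm_cen hz)
      rw [this]
      exact K.inv_mem (K.mul_mem e2 e1)
  refine sup_le (sup_le (sup_le (sup_le hVK ?_) ?_) ?_) ?_
  · rw [zpowers_le]; exact m1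
  · rw [zpowers_le]; exact m2
  · rw [zpowers_le]; exact m3
  · rw [zpowers_le]; exact m4

/-- The square of the automorphism. -/
theorem sq_spec (S : Spec64 τ) : Spec64 (τ.comp τ) where
  ccard := S.ccard
  inv_cen := S.inv_cen
  cen_inv := S.cen_inv
  sq := S.sq
  cmm := S.cmm
  t3 := by
    intro x
    show τ (τ (τ (τ (τ (τ x))))) = x
    rw [S.t3, S.t3]
  fp := by
    intro z hz h
    apply S.fp z hz
    have h1 : τ (τ z) = z := h
    have := congrArg τ h1
    rw [S.t3] at this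
    exact this.symm

/-- Existence of the generators. -/
theorem exists_rel (S : Spec64 τ) (hcard' : Nat.card X = 64) : ∃ z w y0 y1 y2 y3 : X, Rel64 z w y0 y1 y2 y3 ∧
    closure ({y0, y1, y2, y3} : Set X) = ⊤ := by
  have hc : ∀ a b g : X, g * cm a b = cm a b * g := fun a b g => S.cc (S.cmm a b) g
  have hne : center X ≠ ⊤ := by
    intro h
    have := S.ccard
    rw [h, card_top, hcard'] at this
    omega
  obtain ⟨y₁, hy₁⟩ : ∃ y₁, y₁ ∉ center X := by
    by_contra hh
    push Not at hh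
    exact hne (eq_top_iff.2 fun x _ => hh x)
  set z := y₁ ^ 2 with hzdef
  have hz : z ∈ center X := S.sq y₁
  have hz1 : z ≠ 1 := fun h => hy₁ (S.inv_cen _ h)
  let H : Subgroup X := center X ⊔ zpowers y₁ ⊔ zpowers (τ y₁)
  have hVH : center X ≤ H := le_sup_left.trans le_sup_left
  have hy₁H : y₁ ∈ H := mem_sup_left (mem_sup_right (mem_zpowers _))
  have hty₁H : τ y₁ ∈ H := mem_sup_right (mem_zpowers _)
  have htH : ∀ x ∈ H, τ x ∈ H := by
    have : H ≤ H.comap τ := by
      refine sup_le (sup_le ?_ ?_) ?_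
      · intro v hv
        exact hVH (S.tc hv)
      · rw [zpowers_le]
        exact hty₁H
      · rw [zpowers_le]
        show τ (τ y₁) ∈ H
        rw [eq_inv_of_mul_eq_one_right (S.norm1 y₁)]
        exact H.inv_mem (H.mul_mem hy₁H hty₁H)
    exact fun x hx => this hx
  have hcard : Nat.card H ≤ 16 := by
    haveI h1n : (center X ⊔ zpowers y₁).Normal := S.normal_of_le le_sup_left
    have c1 := card_sup_zpowers_le (center X) y₁ (by
      rw [normalizer_eq_top]; trivial) 2 (by norm_num) (S.sq y₁)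
    have c2 := card_sup_zpowers_le (center X ⊔ zpowers y₁) (τ y₁) (by
      rw [normalizer_eq_top]; trivial) 2 (by norm_num) (mem_sup_left (S.sq _))
    have c3 := S.ccard
    show Nat.card (center X ⊔ zpowers y₁ ⊔ zpowers (τ y₁) : Subgroup X) ≤ 16
    omega
  have hHne : H ≠ ⊤ := by
    intro h
    have h1 : Nat.card H = 64 := by rw [h, card_top, hcard']
    omega
  obtain ⟨y, hy⟩ : ∃ y, y ∉ H := by
    by_contra hh
    push Not at hh
    exact hHne (eq_top_iff.2 fun x _ => hh x)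
  have hyV : y ∉ center X := fun h => hy (hVH h)
  have hy1 : y ^ 2 ≠ 1 := fun h => hyV (S.inv_cen _ h)
  have hinvH : ∀ x, τ x ∈ H → x ∈ H := by
    intro x hx
    have := htH _ (htH _ hx)
    rwa [S.t3] at this
  obtain ⟨y₂, hy₂, hy₂z⟩ : ∃ y₂, y₂ ∉ H ∧ y₂ ^ 2 = z := by
    rcases S.four hz hz1 (S.sq y) with h | h | h | h
    · exact absurd h hy1
    · exact ⟨y, hy, h⟩
    · refine ⟨τ (τ y), fun h' => hy (hinvH _ (hinvH _ h')), ?_⟩
      rw [← map_pow, ← map_pow, h, S.t3]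
    · refine ⟨τ y, fun h' => hy (hinvH _ h'), ?_⟩
      rw [← map_pow, h, S.t3]
  have hy₂V : y₂ ∉ center X := fun h => hy₂ (hVH h)
  have hzz : z * z = 1 := by
    rw [← pow_two]
    exact S.cen_inv z hz
  have hE := S.ec y₁ y₂
  rcases S.four hz hz1 (S.cmm y₁ y₂) with h | h | h | h
  · exfalso
    have h1 : (y₁ * y₂) ^ 2 = 1 := by
      rw [sq_mul_of_central (hc _ _), cm_swap, h, inv_one, mul_one, hy₂z, hzz]
    have h2 := hVH (S.inv_cen _ h1)
    apply hy₂
    have e : y₂ = y₁⁻¹ * (y₁ * y₂) := by group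
    rw [e]
    exact H.mul_mem (H.inv_mem hy₁H) h2
  · exfalso
    have h1 : (y₁ * τ y₂) ^ 2 = 1 := by
      rw [sq_mul_of_central (hc _ _), cm_swap, hE.1, h, ← map_pow, hy₂z, ← hzdef,
        S.inv_self (S.tc (S.tc hz))]
      exact S.norm_cen hz
    have h2 := hVH (S.inv_cen _ h1)
    apply hy₂
    apply hinvH
    have e : τ y₂ = y₁⁻¹ * (y₁ * τ y₂) := by group
    rw [e]
    exact H.mul_mem (H.inv_mem hy₁H) h2
  · exact ⟨z, τ z, y₁, τ y₁, y₂, τ y₂, S.rel_of_data hzdef.symm hy₂z h, S.gen hcard' hy₁ hy₂⟩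
  · have S' := S.sq_spec
    refine ⟨z, τ (τ z), y₁, τ (τ y₁), y₂, τ (τ y₂), S'.rel_of_data hzdef.symm hy₂z h, S'.gen hcard' hy₁ ?_⟩
    intro h'
    apply hy₂
    have hle : center X ⊔ zpowers y₁ ⊔ zpowers ((τ.comp τ) y₁) ≤ H := by
      refine sup_le le_sup_left ?_
      rw [zpowers_le]
      show τ (τ y₁) ∈ H
      exact htH _ hty₁H
    exact hle h'

/-- Two groups with this specification are isomorphic. -/
theorem iso {X' : Type*} [Group X'] [Finite X'] {τ' : X' →* X'} (S : Spec64 τ) (S' : Spec64 τ')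
    (hc : Nat.card X = 64) (hc' : Nat.card X' = 64) : Nonempty (X ≃* X') := by
  obtain ⟨z, w, y0, y1, y2, y3, h, g⟩ := S.exists_rel hc
  obtain ⟨z', w', y0', y1', y2', y3', h', g'⟩ := S'.exists_rel hc'
  exact iso_of_rel64 hc hc' h h' g g'

end Spec64

end spec

end Cfsg.Agent.Lib.ZT
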