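import Cfsg.Agent.Lib.ZT.RK1
import Cfsg.Agent.Lib.ZT.RK2
import Cfsg.Prelude.Def_CaseTheorems

/-!
# `2`-groups of rank two with a transitive automorphism: the reduction
-/

set_option autoImplicit false
set_option linter.unusedVariables false
set_option linter.unusedSectionVars false

namespace Cfsg.Agent.Lib.ZT

open Subgroup

universe u

section homocyclic

variable {T : Type*} [Group T] [Finite T]

theorem iso_of_homocyclic (hT : IsPGroup 2 T) (hcomm : ∀ a b : T, a * b = b * a) (s : ℕ)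
    (h1 : ∀ a : T, a ^ (2 ^ s) * a ^ (2 ^ s) = 1) (h2 : ∀ w : T, w * w = 1 → ∃ a : T, a ^ (2 ^ s) = w)
    (h3 : ∀ a : T, a ^ (2 ^ s) = 1 → ∃ b : T, a = b * b) {u v : T} (hu : u * u = 1) (hv : v * v = 1)
    (hu1 : u ≠ 1) (hv1 : v ≠ 1) (huv : u ≠ v)
    (hV : ∀ w : T, w * w = 1 → w = 1 ∨ w = u ∨ w = v ∨ w = u * v) :
    Nonempty (T ≃* Multiplicative (ZMod (2 ^ (s + 1)) × ZMod (2 ^ (s + 1)))) := by
  classical
  obtain ⟨x, hx⟩ := h2 u hu
  obtain ⟨y, hy⟩ := h2 v hv
  set N := 2 ^ (s + 1) with hN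
  haveI : NeZero N := ⟨by positivity⟩
  have hN1 : 1 < N := by
    rw [hN]
    exact Nat.one_lt_two_pow (by omega)
  have hxN : x ^ N = 1 := by
    rw [hN, pow_succ, pow_mul, hx, pow_two, hu]
  have hyN : y ^ N = 1 := by
    rw [hN, pow_succ, pow_mul, hy, pow_two, hv]
  have hxmod : ∀ k : ℕ, x ^ (k % N) = x ^ k := fun k => (pow_eq_pow_mod k hxN).symm
  have hymod : ∀ k : ℕ, y ^ (k % N) = y ^ k := fun k => (pow_eq_pow_mod k hyN).symm
  let G : Multiplicative (ZMod N × ZMod N) →* T :=
    { toFun := fun p => x ^ (Multiplicative.toAdd p).1.val * y ^ (Multiplicative.toAdd p).2.val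
      map_one' := by
        show x ^ (0 : ZMod N).val * y ^ (0 : ZMod N).val = 1
        simp [ZMod.val_zero]
      map_mul' := by
        intro p q
        show x ^ ((Multiplicative.toAdd p).1 + (Multiplicative.toAdd q).1).val *
          y ^ ((Multiplicative.toAdd p).2 + (Multiplicative.toAdd q).2).val = _
        rw [ZMod.val_add, ZMod.val_add, hxmod, hymod, pow_add, pow_add]
        have hc : Commute (x ^ (Multiplicative.toAdd q).1.val) (y ^ (Multiplicative.toAdd p).2.val) :=
          hcomm _ _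
        calc _ = x ^ (Multiplicative.toAdd p).1.val *
              (x ^ (Multiplicative.toAdd q).1.val * y ^ (Multiplicative.toAdd p).2.val) *
              y ^ (Multiplicative.toAdd q).2.val := by group
          _ = x ^ (Multiplicative.toAdd p).1.val *
              (y ^ (Multiplicative.toAdd p).2.val * x ^ (Multiplicative.toAdd q).1.val) *
              y ^ (Multiplicative.toAdd q).2.val := by rw [hc.eq]
          _ = _ := by group }
  have hGapp : ∀ p, G p = x ^ (Multiplicative.toAdd p).1.val * y ^ (Multiplicative.toAdd p).2.val :=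
    fun _ => rfl
  -- descent
  have hdesc : ∀ t, t ≤ s + 1 → ∀ i j : ℕ, x ^ i * y ^ j = 1 → 2 ^ t ∣ i ∧ 2 ^ t ∣ j := by
    intro t
    induction t with
    | zero => intro _ i j _; simp
    | succ t ih =>
      intro ht i j hij
      obtain ⟨⟨i', rfl⟩, ⟨j', rfl⟩⟩ := ih (by omega) i j hij
      obtain ⟨r, hr⟩ : ∃ r, s = t + r := ⟨s - t, by omega⟩
      have h4 : (x ^ (2 ^ t * i') * y ^ (2 ^ t * j')) ^ (2 ^ r) = 1 := by rw [hij, one_pow]
      have hc : Commute (x ^ (2 ^ t * i')) (y ^ (2 ^ t * j')) := hcomm _ _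
      rw [hc.mul_pow, ← pow_mul, ← pow_mul] at h4
      have e1 : 2 ^ t * i' * 2 ^ r = 2 ^ s * i' := by rw [hr, pow_add]; ring
      have e2 : 2 ^ t * j' * 2 ^ r = 2 ^ s * j' := by rw [hr, pow_add]; ring
      rw [e1, e2, pow_mul, pow_mul, hx, hy] at h4
      have hu2 : u ^ 2 = 1 := by rw [pow_two]; exact hu
      have hv2 : v ^ 2 = 1 := by rw [pow_two]; exact hv
      have hue : ∀ a : ℕ, u ^ (2 * a) = 1 := fun a => by rw [pow_mul, hu2, one_pow]
      have hve : ∀ a : ℕ, v ^ (2 * a) = 1 := fun a => by rw [pow_mul, hv2, one_pow]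
      rcases Nat.even_or_odd' i' with ⟨a, rfl | rfl⟩ <;> rcases Nat.even_or_odd' j' with ⟨b, rfl | rfl⟩
      · refine ⟨⟨a, by rw [pow_succ]; ring⟩, ⟨b, by rw [pow_succ]; ring⟩⟩
      · exfalso
        rw [hue, pow_succ, hve, one_mul, one_mul] at h4
        exact hv1 h4
      · exfalso
        rw [pow_succ, hue, hve, one_mul, mul_one] at h4
        exact hu1 h4
      · exfalso
        rw [pow_succ, pow_succ, hue, hve, one_mul, one_mul] at h4
        apply huv
        have := eq_inv_of_mul_eq_one_left h4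
        rw [this]
        exact inv_eq_of_mul_eq_one_left hv
  have hinj : Function.Injective G := by
    rw [injective_iff_map_eq_one]
    intro p hp
    rw [hGapp] at hp
    obtain ⟨d1, d2⟩ := hdesc (s + 1) le_rfl _ _ hp
    have hz : ∀ a : ZMod N, N ∣ a.val → a = 0 := by
      intro a ha
      have h5 : a.val < N := ZMod.val_lt a
      have h6 : a.val = 0 := Nat.eq_zero_of_dvd_of_lt ha h5
      exact (ZMod.val_eq_zero a).1 h6
    have h7 := hz _ d1
    have h8 := hz _ d2
    have : Multiplicative.toAdd p = 0 := Prod.ext h7 h8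
    exact this
  have h1val : (1 : ZMod N).val = 1 := by
    rw [ZMod.val_one_eq_one_mod, Nat.mod_eq_of_lt hN1]
  have hxI : x ∈ G.range := ⟨Multiplicative.ofAdd ((1 : ZMod N), (0 : ZMod N)), by
    rw [hGapp]
    show x ^ (1 : ZMod N).val * y ^ (0 : ZMod N).val = x
    rw [h1val, ZMod.val_zero]
    simp⟩
  have hyI : y ∈ G.range := ⟨Multiplicative.ofAdd ((0 : ZMod N), (1 : ZMod N)), by
    rw [hGapp]
    show x ^ (0 : ZMod N).val * y ^ (1 : ZMod N).val = y
    rw [h1val, ZMod.val_zero]
    simp⟩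
  have hstep : ∀ a : T, ∃ i ∈ G.range, ∃ b : T, a = i * (b * b) := by
    intro a
    have hw := hV _ (h1 a)
    have key : ∀ i ∈ G.range, a ^ (2 ^ s) = i ^ (2 ^ s) → ∃ i ∈ G.range, ∃ b : T, a = i * (b * b) := by
      intro i hi he
      have hc : Commute a i⁻¹ := hcomm _ _
      have h5 : (a * i⁻¹) ^ (2 ^ s) = 1 := by
        rw [hc.mul_pow, inv_pow, he, mul_inv_cancel]
      obtain ⟨b, hb⟩ := h3 _ h5
      refine ⟨i, hi, b, ?_⟩
      rw [← hb]
      have := hcomm i (a * i⁻¹)
      rw [this]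
      group
    rcases hw with hw | hw | hw | hw
    · exact key 1 (one_mem _) (by rw [hw, one_pow])
    · exact key x hxI (by rw [hw, hx])
    · exact key y hyI (by rw [hw, hy])
    · refine key (x * y) (mul_mem hxI hyI) ?_
      have hc : Commute x y := hcomm _ _
      rw [hc.mul_pow, hx, hy, hw]
  have hall : ∀ k : ℕ, ∀ a : T, ∃ i ∈ G.range, ∃ b : T, a = i * b ^ (2 ^ k) := by
    intro k
    induction k with
    | zero =>
      intro a
      exact ⟨1, one_mem _, a, by simp⟩
    | succ k ih =>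
      intro a
      obtain ⟨i, hi, b, rfl⟩ := ih a
      obtain ⟨i', hi', c, rfl⟩ := hstep b
      refine ⟨i * i' ^ (2 ^ k), mul_mem hi (pow_mem hi' _), c, ?_⟩
      have hc : Commute i' (c * c) := hcomm _ _
      have e : (c * c) ^ (2 ^ k) = c ^ (2 ^ (k + 1)) := by
        rw [← pow_two, ← pow_mul, pow_succ 2 k, mul_comm]
      rw [hc.mul_pow, e, mul_assoc]
  have hsurj : Function.Surjective G := by
    intro a
    obtain ⟨k, hk⟩ := IsPGroup.iff_card.1 hT
    obtain ⟨i, hi, b, rfl⟩ := hall k a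
    have : b ^ (2 ^ k) = 1 := by
      rw [← hk]
      exact pow_card_eq_one'
    rw [this, mul_one]
    exact hi
  exact ⟨(MulEquiv.ofBijective G ⟨hinj, hsurj⟩).symm⟩

end homocyclic

section main

variable {T : Type u} [Group T] [Finite T]

theorem cm_eq_hig' (x y : T) : cm x y = Cfsg.Agent.Lib.Fusion.Hig.cm x⁻¹ y⁻¹ := by
  unfold cm Cfsg.Agent.Lib.Fusion.Hig.cm
  group

theorem aut_center (ξ : MulAut T) {z : T} (hz : z ∈ center T) : ξ z ∈ center T := by
  rw [mem_center_iff]
  intro g
  have h1 : ξ.symm g * z = z * ξ.symm g := mem_center_iff.1 hz _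
  have h2 := congrArg ξ h1
  rw [map_mul, map_mul] at h2
  have h3 : ξ (ξ.symm g) = g := ξ.apply_symm_apply g
  rwa [h3] at h2

theorem exists_third (V : Subgroup T) (h : 2 < Nat.card V) (a b : T) : ∃ c ∈ V, c ≠ a ∧ c ≠ b := by
  by_contra hn
  push Not at hn
  have hsub : (V : Set T) ⊆ {a, b} := by
    intro c hc
    by_cases h1 : c = a
    · exact Or.inl h1
    · exact Or.inr (hn c hc h1)
  have h5 := Set.ncard_le_ncard hsub (Set.toFinite _)
  have h6 : (V : Set T).ncard = Nat.card V := (Nat.card_coe_set_eq _).symm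
  have h7 := Set.ncard_insert_le a ({b} : Set T)
  rw [Set.ncard_singleton] at h7
  omega

theorem main_T (hT : IsPGroup 2 T) (h2 : Cfsg.PRankLE 2 2 T) (h1 : ¬ Cfsg.PRankLE 2 1 T) (φ : MulAut T)
    (htrans : ∀ s t : T, orderOf s = 2 → orderOf t = 2 → ∃ k : ℕ, (φ ^ k) s = t) :
    (∃ n : ℕ, 1 ≤ n ∧ Nonempty (T ≃* Multiplicative (ZMod (2 ^ n) × ZMod (2 ^ n)))) ∨
      ∃ τ : T →* T, Spec64 τ ∧ Nat.card T = 64 := by
  classical
  haveI : Fact (Nat.Prime 2) := ⟨Nat.prime_two⟩
  unfold Cfsg.PRankLE at h1 h2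
  push Not at h1
  obtain ⟨A, hA1, hA2, hA3⟩ := h1
  rw [pow_one] at hA3
  haveI : Nontrivial T := by
    rw [← Finite.one_lt_card_iff_nontrivial]
    have := card_le_card_group A
    omega
  haveI := hT.center_nontrivial
  obtain ⟨z, hz⟩ := exists_ne (1 : center T)
  have hz' : (z : T) ≠ 1 := fun h => hz (Subtype.ext h)
  obtain ⟨m, hm1, hm2⟩ := Cfsg.Agent.Lib.Fusion.Hig.exists_inv_pow hT hz'
  have hz₀c : (z : T) ^ m ∈ center T := pow_mem z.2 m
  have hcen : ∀ x : T, x ^ 2 = 1 → x ∈ center T := by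
    intro x hx
    by_cases hx1 : x = 1
    · rw [hx1]
      exact one_mem _
    have o1 : orderOf x = 2 := orderOf_eq_prime hx hx1
    have o0 : orderOf ((z : T) ^ m) = 2 := orderOf_eq_prime (by rw [pow_two]; exact hm2) hm1
    obtain ⟨k, hk⟩ := htrans _ x o0 o1
    rw [← hk]
    exact aut_center _ hz₀c
  have hH1 : ∀ x : T, x ^ 2 = 1 → ∀ g : T, g * x = x * g := fun x hx g =>
    mem_center_iff.1 (hcen x hx) g
  let V : Subgroup T :=
    { carrier := {x | x ^ 2 = 1}
      mul_mem' := by
        intro a b' ha hb'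
        have ha' : a ^ 2 = 1 := ha
        have hb'' : b' ^ 2 = 1 := hb'
        show (a * b') ^ 2 = 1
        have hc : Commute a b' := (hH1 a ha' b').symm
        rw [hc.mul_pow, ha', hb'', one_mul]
      one_mem' := by
        show (1 : T) ^ 2 = 1
        simp
      inv_mem' := by
        intro a ha
        have ha' : a ^ 2 = 1 := ha
        show a⁻¹ ^ 2 = 1
        rw [inv_pow, ha', inv_one] }
  have hVmem : ∀ x, x ∈ V ↔ x ^ 2 = 1 := fun x => Iff.rfl
  have hWle : ∀ W : Subgroup T, (∀ x ∈ W, x ^ 2 = 1) → Nat.card W ≤ 4 := by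
    intro W hW
    have hcomm : IsMulCommutative W := ⟨⟨fun a b => Subtype.ext (hH1 b.1 (hW _ b.2) a.1)⟩⟩
    have := h2 W hcomm hW
    simpa using this
  have hVcard : Nat.card V = 4 := by
    have hle := hWle V (fun x hx => hx)
    have hAV : A ≤ V := fun a ha => hA2 a ha
    have hge := card_le_of_le hAV
    obtain ⟨j, hj⟩ := IsPGroup.iff_card.1 (hT.to_subgroup V)
    rw [hj] at hle hge ⊢
    have hj2 : j = 2 := by
      have h3 : j < 3 := by
        by_contra hh
        push Not at hh
        have : 2 ^ 3 ≤ 2 ^ j := Nat.pow_le_pow_right (by norm_num) hh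
        omega
      interval_cases j
      · omega
      · omega
      · rfl
    rw [hj2]
    norm_num
  have hV3 : 2 < Nat.card V := by omega
  have hautV : ∀ (ξ : MulAut T) (x : T), x ∈ V → ξ x ∈ V := by
    intro ξ x hx
    show (ξ x) ^ 2 = 1
    rw [← map_pow, show x ^ 2 = 1 from hx, map_one]
  have hpowfix : ∀ (ξ : MulAut T) (x : T), ξ x = x → ∀ k : ℕ, (ξ ^ k) x = x := by
    intro ξ x hx k
    induction k with
    | zero => rfl
    | succ k ih =>
      rw [pow_succ, MulAut.mul_apply, hx, ih]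
  have hno : ∀ x ∈ V, x ≠ 1 → φ x ≠ x := by
    intro x hx hx1 hfx
    obtain ⟨y, hy, hy1, hyx⟩ := exists_third V hV3 1 x
    have o1 : orderOf x = 2 := orderOf_eq_prime hx hx1
    have o2 : orderOf y = 2 := orderOf_eq_prime hy hy1
    obtain ⟨k, hk⟩ := htrans x y o1 o2
    rw [hpowfix φ x hfx k] at hk
    exact hyx hk.symm
  have hcube : ∀ ξ : MulAut T, (∀ x ∈ V, x ≠ 1 → ξ x ≠ x) →
      ∀ x ∈ V, x ≠ 1 → ξ (ξ x) ≠ x ∧ ξ (ξ (ξ x)) = x := by
    intro ξ hξ x hx hx1
    have hne1 : ∀ y : T, y ≠ 1 → ξ y ≠ 1 := by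
      intro y hy h
      apply hy
      have := congrArg ξ.symm h
      simpa using this
    have hb := hautV ξ x hx
    have hb1 := hne1 x hx1
    have hd := hautV ξ _ hb
    have hd1 := hne1 _ hb1
    have hab : x ≠ ξ x := fun h => hξ x hx hx1 h.symm
    have hbd : ξ x ≠ ξ (ξ x) := fun h => hξ _ hb hb1 h.symm
    have hxinv : x⁻¹ = x := inv_eq_of_mul_eq_one_left (by rw [← pow_two]; exact hx)
    have had : ξ (ξ x) ≠ x := by
      intro h
      have he : x * ξ x ∈ V := V.mul_mem hx hb
      have he1 : x * ξ x ≠ 1 := by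
        intro h3
        apply hab
        have h3' := eq_inv_of_mul_eq_one_left h3
        have hbinv : (ξ x)⁻¹ = ξ x := inv_eq_of_mul_eq_one_left (by rw [← pow_two]; exact hb)
        exact h3'.trans hbinv
      apply hξ _ he he1
      rw [map_mul, h]
      exact hH1 x hx _
    refine ⟨had, ?_⟩
    rcases Spec64.four_of_card V hVcard V.one_mem hx hb hd hx1.symm hb1.symm hd1.symm hab had.symm hbd
      (hautV ξ _ hd) with h | h | h | h
    · exact absurd h (hne1 _ hd1)
    · exact h
    · exact absurd (ξ.injective h) had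
    · exact absurd h (hξ _ hd hd1)
  have hφ3 := hcube φ hno
  haveI : Finite (MulAut T) :=
    Finite.of_injective (fun f : MulAut T => (f : T → T)) (fun a b h => MulEquiv.ext (congrFun h))
  obtain ⟨b, m', hm', hdec⟩ := Nat.exists_eq_pow_mul_and_not_dvd (orderOf_pos φ).ne' 3 (by norm_num)
  let ψ : MulAut T := φ ^ m'
  have hψb : ψ ^ (3 ^ b) = 1 := by
    show (φ ^ m') ^ (3 ^ b) = 1
    rw [← pow_mul, mul_comm, ← hdec]
    exact pow_orderOf_eq_one φ
  have hφ3k : ∀ q : ℕ, ∀ x ∈ V, (φ ^ (3 * q)) x = x := by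
    intro q x hx
    by_cases hx1 : x = 1
    · rw [hx1, map_one]
    · rw [pow_mul]
      apply hpowfix
      have := (hφ3 x hx hx1).2
      exact this
  have hψno : ∀ x ∈ V, x ≠ 1 → ψ x ≠ x := by
    intro x hx hx1
    show (φ ^ m') x ≠ x
    have hdec2 : m' = m' % 3 + 3 * (m' / 3) := (Nat.mod_add_div m' 3).symm
    have hr : m' % 3 = 1 ∨ m' % 3 = 2 := by omega
    rw [hdec2, pow_add, MulAut.mul_apply, hφ3k _ x hx]
    rcases hr with hr | hr
    · rw [hr, pow_one]
      exact hno x hx hx1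
    · rw [hr, pow_two, MulAut.mul_apply]
      exact (hφ3 x hx hx1).1
  have hψc := hcube ψ hψno
  have hψit : ∀ (k : ℕ) (x : T), (ψ.toMonoidHom : T → T)^[k] x = (ψ ^ k) x := by
    intro k x
    induction k with
    | zero => rfl
    | succ k ih =>
      rw [Function.iterate_succ_apply', ih, pow_succ', MulAut.mul_apply]
      rfl
  have hψ3 : ∀ x : T, ψ (ψ (ψ x)) = x :=
    cube_trivial (Nat.card T) T rfl hT ψ.toMonoidHom b
      (by
        intro x
        rw [hψit, hψb]
        rfl)
      hH1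
      (by
        intro x hx
        by_cases hx1 : x = 1
        · rw [hx1]
          simp
        · exact (hψc x hx hx1).2)
      hWle
  obtain ⟨s₀, hs₀, hs₀1, -⟩ := exists_third V hV3 1 1
  obtain ⟨t₀, ht₀, ht₀1, hts⟩ := exists_third V hV3 1 s₀
  let K₀ : Subgroup (MulAut T) := zpowers ψ
  letI cg : CommGroup K₀ := IsCyclic.commGroup
  let ρ : K₀ →* MulAut T :=
    { toFun := fun k => (k : MulAut T)
      map_one' := rfl
      map_mul' := fun _ _ => rfl }
  have hψ3' : ψ ^ (3 : ℤ) = 1 := by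
    ext x
    show (ψ ^ (3 : ℕ)) x = x
    rw [pow_succ, pow_two, MulAut.mul_apply, MulAut.mul_apply]
    exact hψ3 x
  have hl1 : ∀ l ∈ K₀, ∀ x ∈ V, x ≠ 1 → l x = x → l = 1 := by
    intro l hl x hx hx1 hlx
    obtain ⟨j, rfl⟩ := mem_zpowers_iff.1 hl
    have hj : ψ ^ j = ψ ^ (j % 3) := by
      conv_lhs => rw [← Int.mul_ediv_add_emod j 3]
      rw [zpow_add, zpow_mul, hψ3', one_zpow, one_mul]
    rw [hj] at hlx ⊢
    have h0 : 0 ≤ j % 3 := Int.emod_nonneg _ (by norm_num)
    have h3 : j % 3 < 3 := Int.emod_lt_of_pos _ (by norm_num)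
    have hc : j % 3 = 0 ∨ j % 3 = 1 ∨ j % 3 = 2 := by omega
    rcases hc with hc | hc | hc
    · rw [hc, zpow_zero]
    · rw [hc, zpow_one] at hlx
      exact absurd hlx (hψno x hx hx1)
    · rw [hc] at hlx
      have e : ψ ^ (2 : ℤ) = ψ * ψ := by
        rw [show (2 : ℤ) = ((2 : ℕ) : ℤ) from rfl, zpow_natCast, pow_two]
      rw [e, MulAut.mul_apply] at hlx
      exact absurd hlx (hψc x hx hx1).1
  have hkg : Cfsg.Agent.Lib.Fusion.Hig.KG ρ :=
    { fin := ‹_›
      two := hT
      ex := ⟨s₀, t₀, hts.symm, hs₀1, by rw [← pow_two]; exact hs₀, ht₀1, by rw [← pow_two]; exact ht₀⟩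
      reg := by
        intro x y hx1 hx hy1 hy
        have hxV : x ∈ V := by
          show x ^ 2 = 1
          rw [pow_two]; exact hx
        have hyV : y ∈ V := by
          show y ^ 2 = 1
          rw [pow_two]; exact hy
        have hb := hautV ψ x hxV
        have hd := hautV ψ _ hb
        have hbne : ψ x ≠ 1 := by
          intro h
          apply hx1
          have := congrArg ψ.symm h
          simpa using this
        have hdne : ψ (ψ x) ≠ 1 := by
          intro h
          apply hbne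
          have := congrArg ψ.symm h
          simpa using this
        have hab : x ≠ ψ x := fun h => hψno x hxV hx1 h.symm
        have hbd : ψ x ≠ ψ (ψ x) := fun h => hψno _ hb hbne h.symm
        have had := (hψc x hxV hx1).1
        have hex : ∃ k : K₀, ρ k x = y := by
          rcases Spec64.four_of_card V hVcard V.one_mem hxV hb hd hx1.symm hbne.symm hdne.symm hab had.symm hbd
            hyV with h | h | h | h
          · exact absurd h hy1
          · exact ⟨1, by rw [h]; rfl⟩
          · exact ⟨⟨ψ, mem_zpowers _⟩, h.symm⟩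
          · exact ⟨⟨ψ, mem_zpowers _⟩ * ⟨ψ, mem_zpowers _⟩, h.symm⟩
        obtain ⟨k, hk⟩ := hex
        refine ⟨k, hk, ?_⟩
        intro k' hk'
        have h5 : ((k.1)⁻¹ * k'.1) x = x := by
          rw [MulAut.mul_apply]
          have h6 : k'.1 x = k.1 x := hk'.trans hk.symm
          rw [h6, MulAut.inv_apply_self]
        have h7 := hl1 _ (K₀.mul_mem (K₀.inv_mem k.2) k'.2) x hxV hx1 h5
        apply Subtype.ext
        exact (inv_mul_eq_one.1 h7).symm }
  by_cases hab : ∀ a b : T, a * b = b * a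
  · left
    obtain ⟨s, e1, e2, e3⟩ := hkg.homocyclic (A := ⊤) (fun _ _ _ => mem_top _)
      (fun a _ b _ => hab a b) (a₀ := s₀) (mem_top _) hs₀1
    refine ⟨s + 1, by omega, ?_⟩
    have hinv : ∀ x ∈ V, x⁻¹ = x := fun x hx =>
      inv_eq_of_mul_eq_one_left (by rw [← pow_two]; exact hx)
    refine iso_of_homocyclic hT hab s (fun a => e1 a (mem_top _)) (fun w hw => ?_) (fun a ha => ?_)
      (u := s₀) (v := t₀) (by rw [← pow_two]; exact hs₀) (by rw [← pow_two]; exact ht₀) hs₀1 ht₀1 hts.symm ?_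
    · obtain ⟨a, -, ha⟩ := e2 w hw
      exact ⟨a, ha⟩
    · obtain ⟨b', -, hb'⟩ := e3 a (mem_top _) ha
      exact ⟨b', hb'⟩
    · intro w hw
      have hwV : w ∈ V := by
        show w ^ 2 = 1
        rw [pow_two]; exact hw
      have hst : s₀ * t₀ ∈ V := V.mul_mem hs₀ ht₀
      have h1' : s₀ * t₀ ≠ 1 := by
        intro h
        apply hts
        have := eq_inv_of_mul_eq_one_left h
        rw [hinv t₀ ht₀] at this
        exact this.symm
      have h2' : s₀ ≠ s₀ * t₀ := by
        intro h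
        exact ht₀1 (mul_eq_left.1 h.symm)
      have h3' : t₀ ≠ s₀ * t₀ := by
        intro h
        exact hs₀1 (mul_eq_right.1 h.symm)
      exact Spec64.four_of_card V hVcard V.one_mem hs₀ ht₀ hst hs₀1.symm ht₀1.symm h1'.symm hts.symm h2' h3' hwV
  · right
    push Not at hab
    have hnc : ∃ x y : T, x * y ≠ y * x := hab
    obtain ⟨h4, hcm⟩ := Cfsg.Agent.Lib.Fusion.Hig.higman_main _ T ρ hkg rfl hnc
    have hcV : center T = V := by
      apply le_antisymm
      · intro z hz
        show z ^ 2 = 1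
        rw [pow_two]
        exact hkg.center_sq hnc hz
      · intro x hx
        exact hcen x hx
    have hccard : Nat.card (center T) = 4 := by rw [hcV]; exact hVcard
    have S : Spec64 ψ.toMonoidHom :=
      { ccard := hccard
        inv_cen := hcen
        cen_inv := by
          intro z hz
          rw [pow_two]
          exact hkg.center_sq hnc hz
        sq := by
          intro x
          rw [pow_two]
          exact hkg.central (h4 x)
        cmm := by
          intro x y
          rw [cm_eq_hig']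
          exact hkg.central (hcm _ _)
        t3 := hψ3
        fp := by
          intro z hz hfix
          by_contra hz1
          have hzV : z ∈ V := by rw [← hcV]; exact hz
          exact hψno z hzV hz1 hfix }
    refine ⟨ψ.toMonoidHom, S, ?_⟩
    rcases hkg.card_eq hnc with h | h
    · exfalso
      rw [hccard] at h
      exact S.no_card16 (by rw [h]; norm_num)
    · rw [h, hccard]
      norm_num

end main

end Cfsg.Agent.Lib.ZT
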