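import Cfsg.Agent.Lib.Classical.SUOrder
import Cfsg.Prelude.Def_LieRecognition

/-!
# The Sylow `2`-subgroup of `PSU₃(q)`, `q = 2ⁿ`
-/

set_option autoImplicit false
set_option linter.unusedVariables false
set_option linter.unusedSectionVars false

namespace Cfsg.Agent.Lib.ZT

open Matrix Cfsg

section coordsTheory

/-- Coordinates on a group modelled on the unipotent radical of a Borel subgroup of `SU₃(q)`. -/
structure SUCoords (q : ℕ) (F : Type*) [Field F] (X : Type*) [Group X] (aa cc : X → F) : Prop where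
  ext : ∀ x y : X, aa x = aa y → cc x = cc y → x = y
  rel : ∀ x : X, cc x + cc x ^ q = aa x * aa x ^ q
  aa_mul : ∀ x y : X, aa (x * y) = aa x + aa y
  cc_mul : ∀ x y : X, cc (x * y) = cc x + cc y + aa x * aa y ^ q
  aa_one : aa 1 = 0
  cc_one : cc 1 = 0
  ex : ∀ α γ : F, γ + γ ^ q = α * α ^ q → ∃ x : X, aa x = α ∧ cc x = γ

variable {F : Type*} [Field F] [Fintype F] {n : ℕ}

theorem two_eq_zero_of_card (hF : Fintype.card F = (2 ^ n) ^ 2) : (2 : F) = 0 := by
  have h := Nat.cast_card_eq_zero F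
  rw [hF] at h
  push_cast at h
  by_contra h0
  exact pow_ne_zero _ (pow_ne_zero _ h0) h

theorem frob_add (h2 : (2 : F) = 0) (n : ℕ) (x y : F) : (x + y) ^ (2 ^ n) = x ^ (2 ^ n) + y ^ (2 ^ n) := by
  induction n with
  | zero => simp
  | succ k ih =>
    rw [pow_succ 2 k, pow_mul, pow_mul, pow_mul, ih]
    linear_combination x ^ 2 ^ k * y ^ 2 ^ k * h2

theorem pow_pow_q (hF : Fintype.card F = (2 ^ n) ^ 2) (x : F) : (x ^ (2 ^ n)) ^ (2 ^ n) = x := by
  rw [← pow_mul, ← sq, ← hF]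
  exact FiniteField.pow_card x

theorem exists_ne_fix (hF : Fintype.card F = (2 ^ n) ^ 2) (hn : 1 ≤ n) : ∃ y : F, y ^ (2 ^ n) ≠ y := by
  classical
  obtain ⟨g, hg⟩ := IsCyclic.exists_generator (α := Fˣ)
  have hord : orderOf g = (2 ^ n) ^ 2 - 1 := by
    rw [orderOf_eq_card_of_forall_mem_zpowers hg, Nat.card_eq_fintype_card, Fintype.card_units, hF]
  refine ⟨(g : F), fun h => ?_⟩
  have hq : 2 ≤ 2 ^ n := by
    calc 2 = 2 ^ 1 := by norm_num
      _ ≤ 2 ^ n := Nat.pow_le_pow_right (by norm_num) hn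
  have h1 : g ^ (2 ^ n) = g := by
    apply Units.ext
    push_cast
    exact h
  have h3 : g ^ (2 ^ n - 1) = 1 := by
    have : g ^ (2 ^ n - 1) * g = 1 * g := by
      rw [← pow_succ, Nat.sub_add_cancel (by omega), h1, one_mul]
    exact mul_right_cancel this
  have h4 := orderOf_dvd_of_pow_eq_one h3
  rw [hord] at h4
  have h5 := Nat.le_of_dvd (by omega) h4
  generalize 2 ^ n = q at *
  have h6 : 2 * q ≤ q ^ 2 := by nlinarith
  omega

theorem exists_trace_one (hF : Fintype.card F = (2 ^ n) ^ 2) (hn : 1 ≤ n) :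
    ∃ c : F, c + c ^ (2 ^ n) = 1 := by
  have h2 := two_eq_zero_of_card hF
  obtain ⟨y, hy⟩ := exists_ne_fix hF hn
  have hd : y + y ^ (2 ^ n) ≠ 0 := by
    intro h
    apply hy
    linear_combination h - y * h2
  have hdq : (y + y ^ (2 ^ n)) ^ (2 ^ n) = y + y ^ (2 ^ n) := by
    rw [frob_add h2, pow_pow_q hF, add_comm]
  refine ⟨y / (y + y ^ (2 ^ n)), ?_⟩
  rw [div_pow, hdq]
  field_simp

/-- The fixed field of `x ↦ x ^ q`. -/
abbrev FixQ (F : Type*) [Field F] (q : ℕ) : Type _ := {x : F // x ^ q = x}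

theorem mem_fix_of_trace (h2 : (2 : F) = 0) {q : ℕ} {x : F} (h : x + x ^ q = 0) : x ^ q = x := by
  linear_combination h - x * h2

theorem trace_fix (hF : Fintype.card F = (2 ^ n) ^ 2) (x : F) :
    (x + x ^ (2 ^ n)) ^ (2 ^ n) = x + x ^ (2 ^ n) := by
  have h2 := two_eq_zero_of_card hF
  rw [frob_add h2, pow_pow_q hF, add_comm]

theorem norm_fix (hF : Fintype.card F = (2 ^ n) ^ 2) (x : F) :
    (x * x ^ (2 ^ n)) ^ (2 ^ n) = x * x ^ (2 ^ n) := by
  rw [mul_pow, pow_pow_q hF, mul_comm]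

theorem card_fixQ (hF : Fintype.card F = (2 ^ n) ^ 2) (hn : 1 ≤ n) : Nat.card (FixQ F (2 ^ n)) = 2 ^ n := by
  classical
  have h2 := two_eq_zero_of_card hF
  obtain ⟨c₀, hc₀⟩ := exists_trace_one hF hn
  let e : F ≃ FixQ F (2 ^ n) × FixQ F (2 ^ n) :=
    { toFun := fun γ => (⟨γ + γ ^ (2 ^ n), trace_fix hF γ⟩,
        ⟨γ + c₀ * (γ + γ ^ (2 ^ n)), by
          apply mem_fix_of_trace h2
          rw [frob_add h2, mul_pow, trace_fix hF]
          linear_combination (γ + γ ^ (2 ^ n)) * hc₀ + (γ + γ ^ (2 ^ n)) * h2⟩)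
      invFun := fun p => c₀ * p.1.1 + p.2.1
      left_inv := by
        intro γ
        simp only
        linear_combination c₀ * (γ + γ ^ (2 ^ n)) * h2
      right_inv := by
        rintro ⟨⟨c, hc⟩, ⟨f, hf⟩⟩
        have htr : (c₀ * c + f) + (c₀ * c + f) ^ (2 ^ n) = c := by
          rw [frob_add h2, mul_pow, hc, hf]
          linear_combination c * hc₀ + f * h2
        apply Prod.ext
        · apply Subtype.ext
          exact htr
        · apply Subtype.ext
          show (c₀ * c + f) + c₀ * ((c₀ * c + f) + (c₀ * c + f) ^ (2 ^ n)) = f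
          rw [htr]
          linear_combination c₀ * c * h2 }
  have h1 := Nat.card_congr e
  rw [Nat.card_prod, Nat.card_eq_fintype_card, hF] at h1
  have h3 : (Nat.card (FixQ F (2 ^ n))) ^ 2 = (2 ^ n) ^ 2 := by rw [h1]; ring
  exact Nat.pow_left_injective (n := 2) (by norm_num) h3

variable {X : Type*} [Group X] {aa cc : X → F}

theorem SUCoords.card_X (hF : Fintype.card F = (2 ^ n) ^ 2) (hn : 1 ≤ n) (h : SUCoords (2 ^ n) F X aa cc) :
    Nat.card X = (2 ^ n) ^ 3 := by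
  classical
  have h2 := two_eq_zero_of_card hF
  obtain ⟨c₀, hc₀⟩ := exists_trace_one hF hn
  have hsymm : ∀ x : X, (cc x + c₀ * (aa x * aa x ^ (2 ^ n))) ^ (2 ^ n) = cc x + c₀ * (aa x * aa x ^ (2 ^ n)) := by
    intro x
    apply mem_fix_of_trace h2
    rw [frob_add h2, mul_pow, norm_fix hF]
    linear_combination h.rel x + (aa x * aa x ^ (2 ^ n)) * hc₀ + (aa x * aa x ^ (2 ^ n)) * h2
  let f : X → F × FixQ F (2 ^ n) := fun x => (aa x, ⟨cc x + c₀ * (aa x * aa x ^ (2 ^ n)), hsymm x⟩)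
  have hf : Function.Bijective f := by
    constructor
    · intro x y hxy
      have h1 : aa x = aa y := congrArg Prod.fst hxy
      have h3 : cc x + c₀ * (aa x * aa x ^ (2 ^ n)) = cc y + c₀ * (aa y * aa y ^ (2 ^ n)) :=
        congrArg (fun p => (p.2).1) hxy
      apply h.ext x y h1
      rw [h1] at h3
      exact add_right_cancel h3
    · rintro ⟨α, ⟨φ, hφ⟩⟩
      have hrel : (φ + c₀ * (α * α ^ (2 ^ n))) + (φ + c₀ * (α * α ^ (2 ^ n))) ^ (2 ^ n) = α * α ^ (2 ^ n) := by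
        rw [frob_add h2, mul_pow, hφ, norm_fix hF]
        linear_combination (α * α ^ (2 ^ n)) * hc₀ + φ * h2
      obtain ⟨x, hx1, hx2⟩ := h.ex _ _ hrel
      refine ⟨x, ?_⟩
      apply Prod.ext
      · exact hx1
      · apply Subtype.ext
        show cc x + c₀ * (aa x * aa x ^ (2 ^ n)) = φ
        rw [hx1, hx2]
        linear_combination c₀ * (α * α ^ (2 ^ n)) * h2
  have h1 := Nat.card_congr (Equiv.ofBijective f hf)
  rw [h1, Nat.card_prod, Nat.card_eq_fintype_card, hF, card_fixQ hF hn]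
  ring

theorem SUCoords.aa_eq_zero_of_sq (h : SUCoords (2 ^ n) F X aa cc) (hF : Fintype.card F = (2 ^ n) ^ 2) {x : X}
    (hx : x * x = 1) : aa x = 0 := by
  have h2 := two_eq_zero_of_card hF
  have h1 := h.cc_mul x x
  rw [hx, h.cc_one] at h1
  have h3 : aa x * aa x ^ (2 ^ n) = 0 := by
    linear_combination -h1 - cc x * h2
  rcases mul_eq_zero.1 h3 with h4 | h4
  · exact h4
  · exact pow_eq_zero_iff (by positivity) |>.1 h4

theorem SUCoords.card_center (hF : Fintype.card F = (2 ^ n) ^ 2) (hn : 1 ≤ n) (h : SUCoords (2 ^ n) F X aa cc) :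
    Nat.card (Subgroup.center X) = 2 ^ n := by
  classical
  have h2 := two_eq_zero_of_card hF
  obtain ⟨c₀, hc₀⟩ := exists_trace_one hF hn
  obtain ⟨y₀, hy₀⟩ := exists_ne_fix hF hn
  have hq0 : (2 ^ n : ℕ) ≠ 0 := by positivity
  have haa : ∀ z : X, z ∈ Subgroup.center X → aa z = 0 := by
    intro z hz
    have hcomm : ∀ y : X, y * z = z * y := fun y => (Subgroup.mem_center_iff.1 hz) y
    have hcc : ∀ y : X, aa y * aa z ^ (2 ^ n) = aa z * aa y ^ (2 ^ n) := by
      intro y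
      have h1 := congrArg cc (hcomm y)
      rw [h.cc_mul, h.cc_mul] at h1
      linear_combination h1
    have hrel0 : ∀ t : F, (c₀ * (t * t ^ (2 ^ n))) + (c₀ * (t * t ^ (2 ^ n))) ^ (2 ^ n) = t * t ^ (2 ^ n) := by
      intro t
      rw [mul_pow, norm_fix hF]
      linear_combination (t * t ^ (2 ^ n)) * hc₀
    obtain ⟨y1, hy1, -⟩ := h.ex 1 _ (hrel0 1)
    obtain ⟨y2, hy2, -⟩ := h.ex y₀ _ (hrel0 y₀)
    have h3 := hcc y1
    rw [hy1] at h3
    simp only [one_pow, mul_one, one_mul] at h3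
    have h4 := hcc y2
    rw [hy2, h3] at h4
    have h5 : aa z * (y₀ ^ (2 ^ n) - y₀) = 0 := by linear_combination -h4
    rcases mul_eq_zero.1 h5 with h6 | h6
    · exact h6
    · exact absurd (sub_eq_zero.1 h6) hy₀
  let f : Subgroup.center X → FixQ F (2 ^ n) := fun z => ⟨cc z.1, by
    apply mem_fix_of_trace h2
    have := h.rel z.1
    rw [haa z.1 z.2] at this
    simpa using this⟩
  have hf : Function.Bijective f := by
    constructor
    · intro a b hab
      apply Subtype.ext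
      apply h.ext
      · rw [haa _ a.2, haa _ b.2]
      · exact congrArg Subtype.val hab
    · rintro ⟨φ, hφ⟩
      have hrel : φ + φ ^ (2 ^ n) = 0 * 0 ^ (2 ^ n) := by
        rw [hφ]
        linear_combination φ * h2
      obtain ⟨x, hx1, hx2⟩ := h.ex 0 φ hrel
      have hxc : x ∈ Subgroup.center X := by
        rw [Subgroup.mem_center_iff]
        intro y
        apply h.ext
        · rw [h.aa_mul, h.aa_mul, add_comm]
        · rw [h.cc_mul, h.cc_mul, hx1]
          simp [hq0]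
          ring
      refine ⟨⟨x, hxc⟩, ?_⟩
      apply Subtype.ext
      exact hx2
  rw [Nat.card_congr (Equiv.ofBijective f hf), card_fixQ hF hn]

/-- The fixed units. -/
def fixUnits (F : Type*) [Field F] (q : ℕ) : Subgroup Fˣ where
  carrier := {u | u ^ q = u}
  mul_mem' := by
    intro a b ha hb
    show (a * b) ^ q = a * b
    rw [mul_pow, ha, hb]
  one_mem' := by
    show (1 : Fˣ) ^ q = 1
    simp
  inv_mem' := by
    intro a ha
    show a⁻¹ ^ q = a⁻¹
    rw [inv_pow, ha]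

theorem fixUnits_val {q : ℕ} (u : fixUnits F q) : ((u.1 : F)) ^ q = u.1 := by
  have h : (u.1) ^ q = u.1 := u.2
  have h3 := congrArg (Units.val) h
  simpa using h3

theorem SUCoords.scale_rel (h : SUCoords (2 ^ n) F X aa cc) (u : fixUnits F (2 ^ n)) (x : X) :
    ((u.1 : F) ^ 2 * cc x) + ((u.1 : F) ^ 2 * cc x) ^ (2 ^ n) =
      ((u.1 : F) * aa x) * ((u.1 : F) * aa x) ^ (2 ^ n) := by
  have hu := fixUnits_val u
  rw [mul_pow, mul_pow, ← pow_mul, mul_comm 2, pow_mul, hu]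
  linear_combination (u.1 : F) ^ 2 * h.rel x

/-- The scaling map. -/
noncomputable def SUCoords.scaleFun (h : SUCoords (2 ^ n) F X aa cc) (u : fixUnits F (2 ^ n)) (x : X) : X :=
  (h.ex _ _ (h.scale_rel u x)).choose

theorem SUCoords.scale_aa (h : SUCoords (2 ^ n) F X aa cc) (u : fixUnits F (2 ^ n)) (x : X) :
    aa (h.scaleFun u x) = (u.1 : F) * aa x := (h.ex _ _ (h.scale_rel u x)).choose_spec.1

theorem SUCoords.scale_cc (h : SUCoords (2 ^ n) F X aa cc) (u : fixUnits F (2 ^ n)) (x : X) :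
    cc (h.scaleFun u x) = (u.1 : F) ^ 2 * cc x := (h.ex _ _ (h.scale_rel u x)).choose_spec.2

/-- The scaling homomorphism. -/
noncomputable def SUCoords.scaleHom (h : SUCoords (2 ^ n) F X aa cc) (u : fixUnits F (2 ^ n)) : X →* X where
  toFun := h.scaleFun u
  map_one' := by
    apply h.ext
    · rw [h.scale_aa, h.aa_one, mul_zero]
    · rw [h.scale_cc, h.cc_one, mul_zero]
  map_mul' := by
    intro x y
    have hu := fixUnits_val u
    apply h.ext
    · rw [h.aa_mul, h.scale_aa, h.scale_aa, h.scale_aa, h.aa_mul]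
      ring
    · rw [h.cc_mul, h.scale_cc, h.scale_cc, h.scale_cc, h.cc_mul, h.scale_aa, h.scale_aa, mul_pow, hu]
      ring

theorem SUCoords.scaleHom_mul (h : SUCoords (2 ^ n) F X aa cc) (u v : fixUnits F (2 ^ n)) (x : X) :
    h.scaleHom (u * v) x = h.scaleHom u (h.scaleHom v x) := by
  show h.scaleFun (u * v) x = h.scaleFun u (h.scaleFun v x)
  apply h.ext
  · rw [h.scale_aa, h.scale_aa, h.scale_aa]
    push_cast
    ring
  · rw [h.scale_cc, h.scale_cc, h.scale_cc]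
    push_cast
    ring

theorem SUCoords.scaleHom_one (h : SUCoords (2 ^ n) F X aa cc) (x : X) :
    h.scaleHom 1 x = x := by
  show h.scaleFun 1 x = x
  apply h.ext
  · rw [h.scale_aa]
    simp
  · rw [h.scale_cc]
    simp

/-- The scaling automorphisms, as a homomorphism to `MulAut X`. -/
noncomputable def SUCoords.scaleAut (h : SUCoords (2 ^ n) F X aa cc) : fixUnits F (2 ^ n) →* MulAut X where
  toFun u := MonoidHom.toMulEquiv (h.scaleHom u) (h.scaleHom u⁻¹)
    (by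
      ext x
      show h.scaleHom u⁻¹ (h.scaleHom u x) = x
      rw [← h.scaleHom_mul, inv_mul_cancel, h.scaleHom_one])
    (by
      ext x
      show h.scaleHom u (h.scaleHom u⁻¹ x) = x
      rw [← h.scaleHom_mul, mul_inv_cancel, h.scaleHom_one])
  map_one' := by
    ext x
    exact h.scaleHom_one x
  map_mul' := by
    intro u v
    ext x
    exact h.scaleHom_mul u v x

theorem SUCoords.scaleAut_apply (h : SUCoords (2 ^ n) F X aa cc) (u : fixUnits F (2 ^ n)) (x : X) :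
    h.scaleAut u x = h.scaleFun u x := rfl

theorem SUCoords.suzuki (hF : Fintype.card F = (2 ^ n) ^ 2) (hn : 2 ≤ n) [Finite X]
    (h : SUCoords (2 ^ n) F X aa cc) : IsSuzukiTwoGroup X := by
  classical
  have h2 := two_eq_zero_of_card hF
  have hn1 : 1 ≤ n := by omega
  obtain ⟨c₀, hc₀⟩ := exists_trace_one hF hn1
  obtain ⟨y₀, hy₀⟩ := exists_ne_fix hF hn1
  have hq0 : (2 ^ n : ℕ) ≠ 0 := by positivity
  have hrel0 : ∀ t : F, (c₀ * (t * t ^ (2 ^ n))) + (c₀ * (t * t ^ (2 ^ n))) ^ (2 ^ n) = t * t ^ (2 ^ n) := by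
    intro t
    rw [mul_pow, norm_fix hF]
    linear_combination (t * t ^ (2 ^ n)) * hc₀
  have hcard := h.card_X hF hn1
  refine ⟨inferInstance, ?_, ?_, ?_, ?_⟩
  · haveI : Fact (Nat.Prime 2) := ⟨Nat.prime_two⟩
    rw [IsPGroup.iff_card]
    exact ⟨n * 3, by rw [hcard, pow_mul]⟩
  · obtain ⟨x1, hx1, -⟩ := h.ex 1 _ (hrel0 1)
    obtain ⟨x2, hx2, -⟩ := h.ex y₀ _ (hrel0 y₀)
    refine ⟨x1, x2, fun hc => hy₀ ?_⟩
    have h1 := congrArg cc hc
    rw [h.cc_mul, h.cc_mul, hx1, hx2] at h1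
    simp only [one_pow, mul_one, one_mul] at h1
    linear_combination h1
  · -- two distinct involutions
    have hcardF := card_fixQ hF hn1
    have h4 : 4 ≤ 2 ^ n := by
      calc 4 = 2 ^ 2 := by norm_num
        _ ≤ 2 ^ n := Nat.pow_le_pow_right (by norm_num) hn
    have hb : ∃ b : FixQ F (2 ^ n), b.1 ≠ 0 ∧ b.1 ≠ 1 := by
      by_contra hno
      push Not at hno
      have hle : Nat.card (FixQ F (2 ^ n)) ≤ 2 := by
        let g : FixQ F (2 ^ n) → Fin 2 := fun b => if b.1 = 0 then 0 else 1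
        have hg : Function.Injective g := by
          intro a b hab
          apply Subtype.ext
          by_cases ha : a.1 = 0
          · by_cases hb : b.1 = 0
            · rw [ha, hb]
            · simp [g, ha, hb] at hab
          · by_cases hb : b.1 = 0
            · simp [g, ha, hb] at hab
            · rw [hno a ha, hno b hb]
        have := Nat.card_le_card_of_injective g hg
        simpa using this
      omega
    obtain ⟨⟨b, hbq⟩, hb0', hb1'⟩ := hb
    have hb0 : b ≠ 0 := hb0'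
    have hb1 : b ≠ 1 := hb1'
    have hrelb : ∀ t : F, t ^ (2 ^ n) = t → t + t ^ (2 ^ n) = 0 * 0 ^ (2 ^ n) := by
      intro t ht
      rw [ht]
      linear_combination t * h2
    obtain ⟨x, hx1, hx2⟩ := h.ex 0 1 (hrelb 1 (by simp))
    obtain ⟨y, hy1, hy2⟩ := h.ex 0 b (hrelb b hbq)
    have hsq : ∀ z : X, aa z = 0 → z * z = 1 := by
      intro z hz
      apply h.ext
      · rw [h.aa_mul, hz, h.aa_one, add_zero]
      · rw [h.cc_mul, hz, h.cc_one]
        simp [hq0]
        linear_combination cc z * h2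
    refine ⟨x, y, ?_, ?_, hsq x hx1, ?_, hsq y hy1⟩
    · intro he
      apply hb1
      rw [← hy2, ← he, hx2]
    · intro he
      rw [he, h.cc_one] at hx2
      exact zero_ne_one hx2
    · intro he
      rw [he, h.cc_one] at hy2
      exact hb0 hy2.symm
  · -- the cyclic group
    haveI : IsCyclic (fixUnits F (2 ^ n)) :=
      isCyclic_of_subgroup_isDomain ((Units.coeHom F).comp (fixUnits F (2 ^ n)).subtype)
        (fun a b hab => Subtype.ext (Units.ext hab))
    refine ⟨h.scaleAut.range, isCyclic_of_surjective h.scaleAut.rangeRestrict h.scaleAut.rangeRestrict_surjective, ?_⟩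
    intro x y hx1 hx2 hy1 hy2
    have hax := h.aa_eq_zero_of_sq hF hx2
    have hay := h.aa_eq_zero_of_sq hF hy2
    have hccx : cc x ≠ 0 := by
      intro hc
      apply hx1
      apply h.ext
      · rw [hax, h.aa_one]
      · rw [hc, h.cc_one]
    have hccy : cc y ≠ 0 := by
      intro hc
      apply hy1
      apply h.ext
      · rw [hay, h.aa_one]
      · rw [hc, h.cc_one]
    have hfx : cc x ^ (2 ^ n) = cc x := by
      apply mem_fix_of_trace h2
      have := h.rel x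
      rw [hax] at this
      simpa [hq0] using this
    have hfy : cc y ^ (2 ^ n) = cc y := by
      apply mem_fix_of_trace h2
      have := h.rel y
      rw [hay] at this
      simpa [hq0] using this
    -- the square root
    set μ : F := cc y / cc x with hμ
    have hμ0 : μ ≠ 0 := div_ne_zero hccy hccx
    have hμq : μ ^ (2 ^ n) = μ := by
      rw [hμ, div_pow, hfx, hfy]
    obtain ⟨m, rfl⟩ : ∃ m, n = m + 1 := ⟨n - 1, by omega⟩
    set lam : F := μ ^ (2 ^ m) with hlam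
    have hlam2 : lam ^ 2 = μ := by
      rw [hlam, ← pow_mul, ← pow_succ]
      exact hμq
    have hlam0 : lam ≠ 0 := pow_ne_zero _ hμ0
    have hlamq : lam ^ (2 ^ (m + 1)) = lam := by
      rw [hlam, ← pow_mul, mul_comm, pow_mul, hμq]
    let u : fixUnits F (2 ^ (m + 1)) := ⟨Units.mk0 lam hlam0, by
      show (Units.mk0 lam hlam0) ^ (2 ^ (m + 1)) = Units.mk0 lam hlam0
      apply Units.ext
      push_cast
      exact hlamq⟩
    have huval : ((u.1 : Fˣ) : F) = lam := rfl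
    have hux : h.scaleAut u x = y := by
      rw [h.scaleAut_apply]
      apply h.ext
      · rw [h.scale_aa, hax, hay, mul_zero]
      · rw [h.scale_cc, huval, hlam2, hμ]
        field_simp
    refine ⟨⟨h.scaleAut u, u, rfl⟩, hux, ?_⟩
    rintro ⟨k, v, rfl⟩ hv
    apply Subtype.ext
    show h.scaleAut v = h.scaleAut u
    have hvx : h.scaleAut v x = y := hv
    rw [h.scaleAut_apply] at hvx
    have h1 := congrArg cc hvx
    rw [h.scale_cc] at h1
    have h3 : ((v.1 : Fˣ) : F) ^ 2 = lam ^ 2 := by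
      rw [hlam2, hμ, ← h1]
      field_simp
    have h4 : (((v.1 : Fˣ) : F) + lam) ^ 2 = 0 := by
      linear_combination h3 + (((v.1 : Fˣ) : F) * lam + lam ^ 2) * h2
    have h5 : ((v.1 : Fˣ) : F) = lam := by
      have := pow_eq_zero_iff (two_ne_zero) |>.1 h4
      linear_combination this - lam * h2
    have h6 : v = u := by
      apply Subtype.ext
      apply Units.ext
      exact h5
    rw [h6]

theorem SUCoords.congr {Y : Type*} [Group Y] {q : ℕ} (e : X ≃* Y) (h : SUCoords q F X aa cc) :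
    SUCoords q F Y (fun y => aa (e.symm y)) (fun y => cc (e.symm y)) where
  ext := by
    intro x y h1 h3
    apply e.symm.injective
    exact h.ext _ _ h1 h3
  rel := fun x => h.rel _
  aa_mul := by
    intro x y
    show aa (e.symm (x * y)) = _
    rw [map_mul, h.aa_mul]
  cc_mul := by
    intro x y
    show cc (e.symm (x * y)) = _
    rw [map_mul, h.cc_mul]
  aa_one := by
    show aa (e.symm 1) = 0
    rw [map_one, h.aa_one]
  cc_one := by
    show cc (e.symm 1) = 0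
    rw [map_one, h.cc_one]
  ex := by
    intro α γ hr
    obtain ⟨x, h1, h3⟩ := h.ex α γ hr
    refine ⟨e x, ?_, ?_⟩
    · show aa (e.symm (e x)) = α
      rw [e.symm_apply_apply, h1]
    · show cc (e.symm (e x)) = γ
      rw [e.symm_apply_apply, h3]

end coordsTheory

section matrix

variable {F : Type*} [Field F] [Fintype F] {n : ℕ}

/-- The unipotent elements of `SU₃` for the diagonal form, in characteristic two. -/
def suMat (q : ℕ) (α γ : F) : Matrix (Fin 3) (Fin 3) F :=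
  !![1 + γ, γ, α; γ, 1 + γ, α; α ^ q, α ^ q, 1]

theorem suMat_mul (h2 : (2 : F) = 0) (α γ α' γ' : F) :
    suMat (2 ^ n) α γ * suMat (2 ^ n) α' γ' = suMat (2 ^ n) (α + α') (γ + γ' + α * α' ^ (2 ^ n)) := by
  ext i j
  fin_cases i <;> fin_cases j <;> simp [suMat, Matrix.mul_apply, Fin.sum_univ_three] <;>
    first
    | linear_combination γ * γ' * h2
    | linear_combination γ * α' * h2
    | linear_combination α ^ (2 ^ n) * α' * h2
    | (rw [frob_add h2]; linear_combination α ^ (2 ^ n) * γ' * h2)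

theorem suMat_zero {q : ℕ} (hq : q ≠ 0) : suMat q (0 : F) 0 = 1 := by
  ext i j
  fin_cases i <;> fin_cases j <;> simp [suMat, hq]

theorem suMat_det (h2 : (2 : F) = 0) (q : ℕ) (α γ : F) : (suMat q α γ).det = 1 := by
  rw [Matrix.det_fin_three]
  simp [suMat]
  linear_combination (γ - α * α ^ q) * h2

theorem suMat_mulVec (q : ℕ) (α γ : F) (u : Fin 3 → F) :
    suMat q α γ *ᵥ u = ![u 0 + γ * (u 0 + u 1) + α * u 2, u 1 + γ * (u 0 + u 1) + α * u 2,
      α ^ q * (u 0 + u 1) + u 2] := by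
  ext i
  fin_cases i <;> simp [suMat, Matrix.mulVec, dotProduct, Fin.sum_univ_three] <;> ring

theorem suMat_herm (hF : Fintype.card F = (2 ^ n) ^ 2) {α γ : F} (hrel : γ + γ ^ (2 ^ n) = α * α ^ (2 ^ n))
    (u v : Fin 3 → F) :
    hermForm 3 F (2 ^ n) (suMat (2 ^ n) α γ *ᵥ u) (suMat (2 ^ n) α γ *ᵥ v) = hermForm 3 F (2 ^ n) u v := by
  have h2 := two_eq_zero_of_card hF
  rw [suMat_mulVec, suMat_mulVec]
  unfold hermForm
  simp only [Fin.sum_univ_three]
  simp only [Matrix.cons_val_zero, Matrix.cons_val_one, Matrix.cons_val, frob_add h2, mul_pow, pow_pow_q hF]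
  linear_combination (u 0 + u 1) * (v 0 ^ (2 ^ n) + v 1 ^ (2 ^ n)) * hrel +
    (α * α ^ (2 ^ n) * (u 0 + u 1) * (v 0 ^ (2 ^ n) + v 1 ^ (2 ^ n)) + (u 0 + u 1) * α ^ (2 ^ n) * v 2 ^ (2 ^ n) +
      α * u 2 * (v 0 ^ (2 ^ n) + v 1 ^ (2 ^ n)) +
      (γ * (u 0 + u 1) + α * u 2) * (γ ^ (2 ^ n) * (v 0 ^ (2 ^ n) + v 1 ^ (2 ^ n)) + α ^ (2 ^ n) * v 2 ^ (2 ^ n))) * h2

/-- The Sylow subgroup. -/
def suP (hF : Fintype.card F = (2 ^ n) ^ 2) : Subgroup (SU 3 F (2 ^ n)) where
  carrier := {g | ∃ α γ : F, γ + γ ^ (2 ^ n) = α * α ^ (2 ^ n) ∧ (g.1.1 : Matrix (Fin 3) (Fin 3) F) = suMat (2 ^ n) α γ}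
  mul_mem' := by
    rintro a b ⟨α, γ, h, ha⟩ ⟨α', γ', h', hb⟩
    have h2 := two_eq_zero_of_card hF
    refine ⟨α + α', γ + γ' + α * α' ^ (2 ^ n), ?_, ?_⟩
    · rw [frob_add h2, frob_add h2, mul_pow, pow_pow_q hF, frob_add h2]
      linear_combination h + h'
    · show (a.1.1 * b.1.1 : Matrix (Fin 3) (Fin 3) F) = _
      rw [ha, hb, suMat_mul h2]
  one_mem' := ⟨0, 0, by simp, by
    show (1 : Matrix (Fin 3) (Fin 3) F) = _
    rw [suMat_zero (by positivity)]⟩
  inv_mem' := by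
    rintro a ⟨α, γ, h, ha⟩
    have h2 := two_eq_zero_of_card hF
    have hrel' : (γ + α * α ^ (2 ^ n)) + (γ + α * α ^ (2 ^ n)) ^ (2 ^ n) = α * α ^ (2 ^ n) := by
      rw [frob_add h2, norm_fix hF]
      linear_combination h + (α * α ^ (2 ^ n)) * h2
    have hb : ∃ b : SU 3 F (2 ^ n), (b.1.1 : Matrix (Fin 3) (Fin 3) F) = suMat (2 ^ n) α (γ + α * α ^ (2 ^ n)) :=
      ⟨⟨⟨suMat (2 ^ n) α (γ + α * α ^ (2 ^ n)), suMat_det h2 _ _ _⟩, fun u v => suMat_herm hF hrel' u v⟩, rfl⟩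
    obtain ⟨b, hb⟩ := hb
    have hab : a * b = 1 := by
      apply Subtype.ext
      apply Subtype.ext
      show (a.1.1 * b.1.1 : Matrix (Fin 3) (Fin 3) F) = 1
      rw [ha, hb, suMat_mul h2]
      have e1 : α + α = 0 := by linear_combination α * h2
      have e2 : γ + (γ + α * α ^ (2 ^ n)) + α * α ^ (2 ^ n) = 0 := by
        linear_combination (γ + α * α ^ (2 ^ n)) * h2
      rw [e1, e2, suMat_zero (by positivity)]
    have hinv : a⁻¹ = b := (eq_inv_of_mul_eq_one_right hab).symm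
    rw [hinv]
    exact ⟨α, γ + α * α ^ (2 ^ n), hrel', hb⟩

/-- The coordinates. -/
def suAA (hF : Fintype.card F = (2 ^ n) ^ 2) (x : ↥(suP hF)) : F := (x.1.1.1 : Matrix (Fin 3) (Fin 3) F) 0 2

/-- The coordinates. -/
def suCC (hF : Fintype.card F = (2 ^ n) ^ 2) (x : ↥(suP hF)) : F := (x.1.1.1 : Matrix (Fin 3) (Fin 3) F) 0 1

theorem suP_mat (hF : Fintype.card F = (2 ^ n) ^ 2) (x : ↥(suP hF)) :
    (x.1.1.1 : Matrix (Fin 3) (Fin 3) F) = suMat (2 ^ n) (suAA hF x) (suCC hF x) ∧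
      suCC hF x + suCC hF x ^ (2 ^ n) = suAA hF x * suAA hF x ^ (2 ^ n) := by
  obtain ⟨α, γ, h, ha⟩ := x.2
  have h1 : suAA hF x = α := by
    unfold suAA
    rw [ha]
    simp [suMat]
  have h3 : suCC hF x = γ := by
    unfold suCC
    rw [ha]
    simp [suMat]
  rw [h1, h3]
  exact ⟨ha, h⟩

theorem suP_coords (hF : Fintype.card F = (2 ^ n) ^ 2) : SUCoords (2 ^ n) F ↥(suP hF) (suAA hF) (suCC hF) where
  ext := by
    intro x y h1 h3
    apply Subtype.ext
    apply Subtype.ext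
    apply Subtype.ext
    rw [(suP_mat hF x).1, (suP_mat hF y).1, h1, h3]
  rel := fun x => (suP_mat hF x).2
  aa_mul := by
    intro x y
    have h2 := two_eq_zero_of_card hF
    show (x.1.1.1 * y.1.1.1 : Matrix (Fin 3) (Fin 3) F) 0 2 = _
    rw [(suP_mat hF x).1, (suP_mat hF y).1, suMat_mul h2]
    simp [suMat]
  cc_mul := by
    intro x y
    have h2 := two_eq_zero_of_card hF
    show (x.1.1.1 * y.1.1.1 : Matrix (Fin 3) (Fin 3) F) 0 1 = _
    rw [(suP_mat hF x).1, (suP_mat hF y).1, suMat_mul h2]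
    simp [suMat]
  aa_one := by
    show (1 : Matrix (Fin 3) (Fin 3) F) 0 2 = 0
    simp
  cc_one := by
    show (1 : Matrix (Fin 3) (Fin 3) F) 0 1 = 0
    simp
  ex := by
    intro α γ h
    have h2 := two_eq_zero_of_card hF
    let b : SU 3 F (2 ^ n) := ⟨⟨suMat (2 ^ n) α γ, suMat_det h2 _ _ _⟩, fun u v => suMat_herm hF h u v⟩
    refine ⟨⟨b, ⟨α, γ, h, rfl⟩⟩, ?_, ?_⟩
    · show (suMat (2 ^ n) α γ) 0 2 = α
      simp [suMat]
    · show (suMat (2 ^ n) α γ) 0 1 = γ
      simp [suMat]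

/-- A subgroup of the full `2`-power order is isomorphic to any Sylow `2`-subgroup. -/
theorem sylow_iso_of_full {Y : Type*} [Group Y] [Finite Y] (P : Subgroup Y) (N m : ℕ) (hm : Odd m)
    (hY : Nat.card Y ∣ 2 ^ N * m) (hP : Nat.card P = 2 ^ N) (S : Sylow 2 Y) :
    Nonempty (↥P ≃* ↥(S : Subgroup Y)) := by
  haveI : Fact (Nat.Prime 2) := ⟨Nat.prime_two⟩
  have hPp : IsPGroup 2 P := IsPGroup.iff_card.mpr ⟨N, hP⟩
  obtain ⟨Q, hQ⟩ := hPp.exists_le_sylow
  obtain ⟨k, hk⟩ := (Q.isPGroup').exists_card_eq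
  have hd : Nat.card (Q : Subgroup Y) ∣ 2 ^ N * m := (Subgroup.card_subgroup_dvd_card _).trans hY
  have hcop : Nat.Coprime (2 ^ k) m := Nat.Coprime.pow_left _ (Nat.coprime_two_left.2 hm)
  rw [hk] at hd
  have hd2 : 2 ^ k ∣ 2 ^ N := hcop.dvd_of_dvd_mul_right hd
  have hcQ : Nat.card (Q : Subgroup Y) ≤ Nat.card P := by
    rw [hk, hP]
    exact Nat.le_of_dvd (by positivity) hd2
  have heq : P = Q := Subgroup.eq_of_le_of_card_ge hQ hcQ
  subst heq
  exact ⟨Sylow.equiv Q S⟩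

/-- **The Sylow `2`-subgroups of `PSU₃(2ⁿ)`** carry coordinates. -/
theorem sylow_psu3_coords (hF : Fintype.card F = (2 ^ n) ^ 2) (hn : 1 ≤ n) (S : Sylow 2 (PSU 3 F (2 ^ n))) :
    ∃ aa cc : ↥(S : Subgroup (PSU 3 F (2 ^ n))) → F, SUCoords (2 ^ n) F ↥(S : Subgroup (PSU 3 F (2 ^ n))) aa cc := by
  have hm := suP_coords hF
  have hq2 : 2 ≤ (2 ^ n) := by
    calc 2 = 2 ^ 1 := by norm_num
      _ ≤ 2 ^ n := Nat.pow_le_pow_right (by norm_num) hn
  have hqeven : Even (2 ^ n) := by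
    exact (Nat.even_pow.2 ⟨even_two, by omega⟩)
  have hcardP : Nat.card (suP hF) = 2 ^ (n * 3) := by
    rw [pow_mul]
    exact hm.card_X hF hn
  have hSU : ((2 ^ n) + 1) * Nat.card (SU 3 F (2 ^ n)) = (2 ^ n) ^ 3 * (((2 ^ n) + 1) * ((2 ^ n) ^ 2 - 1) * ((2 ^ n) ^ 3 + 1)) := by
    have h := Cfsg.Agent.Lib.Classical.card_su (F := F) (q := 2 ^ n) (n := 3) hF (by norm_num)
    simp only [Finset.prod_range_succ, Finset.prod_range_zero] at h
    norm_num [Nat.even_iff] at h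
    rw [h]
  have hSU2 : Nat.card (SU 3 F (2 ^ n)) = (2 ^ n) ^ 3 * (((2 ^ n) ^ 2 - 1) * ((2 ^ n) ^ 3 + 1)) := by
    have h1 : ((2 ^ n) + 1) * Nat.card (SU 3 F (2 ^ n)) = ((2 ^ n) + 1) * ((2 ^ n) ^ 3 * (((2 ^ n) ^ 2 - 1) * ((2 ^ n) ^ 3 + 1))) := by
      rw [hSU]
      ring
    exact Nat.eq_of_mul_eq_mul_left (by omega) h1
  have hZ : Nat.card (Subgroup.center (SU 3 F (2 ^ n))) = Nat.gcd 3 ((2 ^ n) + 1) :=
    Cfsg.Agent.Lib.Classical.card_center_su (F := F) (q := 2 ^ n) (n := 3) hF (by norm_num)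
  let π : SU 3 F (2 ^ n) →* PSU 3 F (2 ^ n) := QuotientGroup.mk' _
  let f : ↥(suP hF) →* PSU 3 F (2 ^ n) := π.comp (suP hF).subtype
  have hf : Function.Injective f := by
    rw [injective_iff_map_eq_one]
    intro x hx
    have hxZ : x.1 ∈ Subgroup.center (SU 3 F (2 ^ n)) := by
      have : π x.1 = 1 := hx
      exact (QuotientGroup.eq_one_iff _).1 this
    have h1 : orderOf x ∣ 2 ^ (n * 3) := by
      rw [← hcardP]
      exact orderOf_dvd_natCard x
    have h3 : orderOf x ∣ 3 := by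
      have h4 : orderOf (⟨x.1, hxZ⟩ : Subgroup.center (SU 3 F (2 ^ n))) ∣ Nat.gcd 3 ((2 ^ n) + 1) := by
        rw [← hZ]
        exact orderOf_dvd_natCard _
      have h5 : orderOf (⟨x.1, hxZ⟩ : Subgroup.center (SU 3 F (2 ^ n))) = orderOf x := by
        rw [Subgroup.orderOf_mk, Subgroup.orderOf_coe]
      rw [h5] at h4
      exact h4.trans (Nat.gcd_dvd_left _ _)
    have hcop : Nat.Coprime (2 ^ (n * 3)) 3 := Nat.Coprime.pow_left _ (by norm_num)
    have h6 : orderOf x = 1 := Nat.eq_one_of_dvd_coprimes hcop h1 h3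
    exact orderOf_eq_one_iff.1 h6
  let e := MonoidHom.ofInjective hf
  have hcardR : Nat.card f.range = 2 ^ (n * 3) := by
    rw [← Nat.card_congr e.toEquiv]
    exact hcardP
  have hoddm : Odd (((2 ^ n) ^ 2 - 1) * ((2 ^ n) ^ 3 + 1)) := by
    apply Odd.mul
    · have : 1 ≤ (2 ^ n) ^ 2 := Nat.one_le_pow _ _ (by omega)
      have he : Even ((2 ^ n) ^ 2) := hqeven.pow_of_ne_zero (by norm_num)
      exact Nat.Even.sub_odd this he odd_one
    · exact (hqeven.pow_of_ne_zero (by norm_num)).add_one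
  have hdvd : Nat.card (PSU 3 F (2 ^ n)) ∣ 2 ^ (n * 3) * (((2 ^ n) ^ 2 - 1) * ((2 ^ n) ^ 3 + 1)) := by
    have h1 := Subgroup.card_eq_card_quotient_mul_card_subgroup (Subgroup.center (SU 3 F (2 ^ n)))
    have h3 : 2 ^ (n * 3) * (((2 ^ n) ^ 2 - 1) * ((2 ^ n) ^ 3 + 1)) = Nat.card (SU 3 F (2 ^ n)) := by
      rw [hSU2, pow_mul]
    rw [h3, h1]
    exact Dvd.intro _ rfl
  obtain ⟨e2⟩ := sylow_iso_of_full f.range (n * 3) _ hoddm hdvd hcardR S
  exact ⟨_, _, hm.congr (e.trans e2)⟩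

end matrix

end Cfsg.Agent.Lib.ZT
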