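import Cfsg.Agent.Lib.ZT.RK2
import Cfsg.Agent.Lib.ZT.SU3Syl
import Cfsg.Agent.Lib.Fusion.Hig11

/-!
# The specification for the Sylow `2`-subgroup of `PSU₃(4)`
-/

set_option autoImplicit false
set_option linter.unusedVariables false
set_option linter.unusedSectionVars false

namespace Cfsg.Agent.Lib.ZT

open Subgroup

variable {F : Type*} [Field F] [Fintype F] {X : Type*} [Group X] [Finite X] {aa cc : X → F}

theorem cm_eq_hig (x y : X) : cm x y = Cfsg.Agent.Lib.Fusion.Hig.cm x⁻¹ y⁻¹ := by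
  unfold cm Cfsg.Agent.Lib.Fusion.Hig.cm
  group

/-- The specification from the coordinates. -/
theorem exists_spec_of_coords (hF : Fintype.card F = (2 ^ 2) ^ 2) (h : SUCoords (2 ^ 2) F X aa cc) :
    ∃ τ : X →* X, Spec64 τ ∧ Nat.card X = 64 := by
  classical
  have hcard : Nat.card X = 64 := by
    rw [h.card_X hF (by norm_num)]
    norm_num
  have hcen : Nat.card (center X) = 4 := by
    rw [h.card_center hF (by norm_num)]
    norm_num
  obtain ⟨K, cK, ρ, hk⟩ := Cfsg.Agent.Lib.Fusion.Hig.suzuki_kg (h.suzuki hF (by norm_num))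
  have hnc : ∃ x y : X, x * y ≠ y * x := by
    by_contra hh
    push Not at hh
    have htop : center X = ⊤ := by
      rw [eq_top_iff]
      intro x _
      rw [mem_center_iff]
      intro g
      exact hh g x
    rw [htop, card_top, hcard] at hcen
    omega
  obtain ⟨h4, hcm⟩ := Cfsg.Agent.Lib.Fusion.Hig.higman_main _ X ρ hk rfl hnc
  have hFc : Nat.card Fˣ = 15 := by
    rw [Nat.card_eq_fintype_card, Fintype.card_units, hF]
    norm_num
  haveI : Fact (Nat.Prime 3) := ⟨Nat.prime_three⟩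
  obtain ⟨u, hu⟩ := exists_prime_orderOf_dvd_card' (G := Fˣ) 3 (by rw [hFc]; norm_num)
  have hu3 : u ^ 3 = 1 := by rw [← hu]; exact pow_orderOf_eq_one u
  have hufix : u ^ (2 ^ 2) = u := by
    have : (2 ^ 2 : ℕ) = 3 + 1 := by norm_num
    rw [this, pow_succ, hu3, one_mul]
  let U : fixUnits F (2 ^ 2) := ⟨u, hufix⟩
  have hUval : ((U.1 : Fˣ) : F) = (u : F) := rfl
  have hU3 : U * U * U = 1 := by
    apply Subtype.ext
    show u * u * u = 1
    rw [← pow_two, ← pow_succ]
    exact hu3
  refine ⟨(h.scaleAut U).toMonoidHom, ⟨hcen, ?_, ?_, ?_, ?_, ?_, ?_⟩, hcard⟩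
  · intro x hx
    apply hk.central
    rwa [← pow_two]
  · intro z hz
    rw [pow_two]
    exact hk.center_sq hnc hz
  · intro x
    rw [pow_two]
    exact hk.central (h4 x)
  · intro x y
    rw [cm_eq_hig]
    exact hk.central (hcm _ _)
  · intro x
    show h.scaleAut U (h.scaleAut U (h.scaleAut U x)) = x
    rw [← MulAut.mul_apply, ← MulAut.mul_apply, ← map_mul, ← map_mul, hU3, map_one]
    rfl
  · intro z hz hfix
    have hfix' : h.scaleAut U z = z := hfix
    have ha : aa z = 0 := h.aa_eq_zero_of_sq hF (hk.center_sq hnc hz)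
    have hc := congrArg cc hfix'
    rw [h.scaleAut_apply, h.scale_cc, hUval] at hc
    have hu2 : (u : F) ^ 2 ≠ 1 := by
      intro h2
      have h3 : u ^ 2 = 1 := by
        apply Units.ext
        simpa using h2
      exact pow_ne_one_of_lt_orderOf (by norm_num) (by rw [hu]; norm_num) h3
    have hc0 : cc z = 0 := by
      have h5 : ((u : F) ^ 2 - 1) * cc z = 0 := by linear_combination hc
      rcases mul_eq_zero.1 h5 with h6 | h6
      · exact absurd (sub_eq_zero.1 h6) hu2
      · exact h6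
    apply h.ext
    · rw [ha, h.aa_one]
    · rw [hc0, h.cc_one]

/-- The same for Sylow subgroups of `PSU₃(4)`. -/
theorem exists_spec_sylow (hF : Fintype.card F = 16) (P : Sylow 2 (Cfsg.PSU 3 F 4)) :
    ∃ τ : (P : Subgroup (Cfsg.PSU 3 F 4)) →* (P : Subgroup (Cfsg.PSU 3 F 4)),
      Spec64 τ ∧ Nat.card (P : Subgroup (Cfsg.PSU 3 F 4)) = 64 := by
  have hF' : Fintype.card F = (2 ^ 2) ^ 2 := by rw [hF]; norm_num
  obtain ⟨aa, cc, h⟩ := sylow_psu3_coords (n := 2) hF' (by norm_num) P
  exact exists_spec_of_coords hF' h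

end Cfsg.Agent.Lib.ZT
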